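import Cfsg.Agent.Lib.FitHeight.Pieces
import Mathlib.GroupTheory.QuotientGroup.Basic

/-! From a self-centralising normal subgroup to core data in the quotient. -/

set_option autoImplicit false

namespace Cfsg.Agent.Lib.FitHeight

open scoped Pointwise commutatorElement IsMulCommutative
open Subgroup Cfsg.Agent.Lib.Coprime Cfsg.Agent.Lib.Hall

universe u

variable {Γ : Type u} [Group Γ]

theorem le_ker_conjNormal (V : Subgroup Γ) [V.Normal] [IsMulCommutative V] :
    V ≤ (MulAut.conjNormal : Γ →* MulAut V).ker := fun x hx => by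
  refine MonoidHom.mem_ker.mpr (MulEquiv.ext fun v => Subtype.ext ?_)
  rw [MulAut.conjNormal_apply]
  have h : x * (v : Γ) = v * x :=
    congrArg Subtype.val ((inferInstance : IsMulCommutative V).is_comm.comm (⟨x, hx⟩ : V) v)
  rw [h, mul_inv_cancel_right]
  rfl

/-- The action of the quotient by an abelian normal subgroup on it. -/
@[reducible] noncomputable def quotientAction (V : Subgroup Γ) [V.Normal] [IsMulCommutative V] :
    MulDistribMulAction (Γ ⧸ V) V :=
  MulDistribMulAction.compHom V
    (QuotientGroup.lift V (MulAut.conjNormal : Γ →* MulAut V) (le_ker_conjNormal V))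

theorem coe_quotientAction_smul (V : Subgroup Γ) [V.Normal] [IsMulCommutative V] (g : Γ) (v : V) :
    letI := quotientAction V
    ((((g : Γ ⧸ V) • v : V)) : Γ) = g * v * g⁻¹ :=
  MulAut.conjNormal_apply g v

theorem coreData_quotient [Finite Γ] {P : ∀ (A : Type u) [Group A], Prop}
    (hP : ∀ {A B : Type u} [Group A] [Group B], (A ≃* B) → P A → P B) {H A V : Subgroup Γ} {l : ℕ}
    (S : Setting P H A) [V.Normal] [IsMulCommutative V] (hVH : V ≤ H) (hl : l.Prime)
    (hVl : ∀ x ∈ V, x ^ l = 1) (hCV : H ⊓ centralizer (V : Set Γ) ≤ V)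
    (hO : ∀ M : Subgroup Γ, M.Normal → M ≤ H → IsPGroup l M → M ≤ V) (hV : V ≠ ⊥)
    (hmin : ∀ B : Subgroup (Γ ⧸ V), B ≤ A.map (QuotientGroup.mk' V) → B ≠ A.map (QuotientGroup.mk' V) →
      B ≠ ⊥ → (Nat.card B).Prime) :
    letI := quotientAction V
    CoreData V (H.map (QuotientGroup.mk' V)) (A.map (QuotientGroup.mk' V)) l := by
  let _ := quotientAction V
  have hπ : Function.Surjective (QuotientGroup.mk' V) := QuotientGroup.mk'_surjective V
  have T := S.quotient hP V hVH
  refine
    { normal := T.normal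
      sup := T.sup
      solv := T.solv
      asolv := T.hAsolv
      cop := T.cop
      fpf := T.fpf
      hl := hl
      hVl := fun v => Subtype.ext (by simpa using hVl v v.2)
      hlA := ?_
      hVA := ?_
      faith := ?_
      core := ?_
      hmin := hmin }
  · obtain ⟨x, hx, hx1⟩ := (bot_or_exists_ne_one V).resolve_left hV
    have hlH : l ∣ Nat.card H := by
      have h1 : orderOf x ∣ Nat.card V := by
        rw [← Subgroup.orderOf_mk x hx]; exact _root_.orderOf_dvd_natCard _
      haveI := Fact.mk hl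
      rw [orderOf_eq_prime (hVl x hx) hx1] at h1
      exact h1.trans (card_dvd_of_le hVH)
    exact ((S.cop.coprime_dvd_right hlH).coprime_dvd_left (card_map_dvd A _)).symm
  · intro v hv
    have h : (v : Γ) ∈ H ⊓ centralizer (A : Set Γ) := ⟨hVH v.2, mem_centralizer_iff.mpr fun a ha => by
      have h1 := congrArg Subtype.val (hv _ (mem_map_of_mem (QuotientGroup.mk' V) ha))
      rw [show (((QuotientGroup.mk' V a) • v : V) : Γ) = a * v * a⁻¹ from coe_quotientAction_smul V a v] at h1
      exact mul_inv_eq_iff_eq_mul.mp h1⟩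
    rw [S.fpf, mem_bot] at h
    exact Subtype.ext h
  · rintro _ ⟨h, hh, rfl⟩ hfix
    refine (QuotientGroup.eq_one_iff h).mpr (hCV ⟨hh, mem_centralizer_iff.mpr fun v hv => ?_⟩)
    have h1 := congrArg Subtype.val (hfix ⟨v, hv⟩)
    rw [show (((QuotientGroup.mk' V h) • (⟨v, hv⟩ : V) : V) : Γ) = h * v * h⁻¹ from
      coe_quotientAction_smul V h ⟨v, hv⟩] at h1
    exact (mul_inv_eq_iff_eq_mul.mp h1).symm
  · intro M hMn hMH hMl
    have hker : V ≤ M.comap (QuotientGroup.mk' V) := fun x hx => by
      rw [mem_comap, show QuotientGroup.mk' V x = 1 from (QuotientGroup.eq_one_iff x).mpr hx]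
      exact one_mem _
    have hle : M.comap (QuotientGroup.mk' V) ≤ H := by
      intro x hx
      obtain ⟨h, hh, he⟩ := hMH hx
      have h2 : h⁻¹ * x ∈ V := QuotientGroup.eq.mp he
      simpa using H.mul_mem hh (hVH h2)
    have hpg : IsPGroup l (M.comap (QuotientGroup.mk' V)) := fun x => by
      obtain ⟨i, hi⟩ := hMl ⟨QuotientGroup.mk' V x, x.2⟩
      have h1 : (x : Γ) ^ l ^ i ∈ V := (QuotientGroup.eq_one_iff _).mp
        ((map_pow (QuotientGroup.mk' V) _ _).trans (congrArg Subtype.val hi))
      exact ⟨i + 1, Subtype.ext (by rw [Subgroup.coe_pow, pow_succ, pow_mul, hVl _ h1, Subgroup.coe_one])⟩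
    have h1 := hO _ (hMn.comap _) hle hpg
    refine (eq_bot_iff_forall _).mpr fun y hy => ?_
    obtain ⟨x, rfl⟩ := hπ y
    exact (QuotientGroup.eq_one_iff x).mpr (h1 hy)

end Cfsg.Agent.Lib.FitHeight
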