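import Cfsg.Agent.Lib.FitHeight.CornerModule

/-! The Fermat corner: a fixed-point-free element `s` of odd prime order normalising a 2-group `Q`
and an odd group `Y` acting as an elementary abelian group on `Q`. -/

set_option autoImplicit false

namespace Cfsg.Agent.Lib.FitHeight

open scoped Pointwise commutatorElement IsMulCommutative
open Subgroup Cfsg.Agent.Lib.Coprime

theorem mem_normalizer_commutator {G : Type*} [Group G] [Finite G] {A B : Subgroup G} {g : G}
    (hA : g ∈ normalizer (A : Set G)) (hB : g ∈ normalizer (B : Set G)) :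
    g ∈ normalizer ((⁅A, B⁆ : Subgroup G) : Set G) := by
  refine mem_normalizer_of_conj_smul_eq ?_
  show (⁅A, B⁆).map (MulAut.conj g).toMonoidHom = ⁅A, B⁆
  rw [map_commutator]
  exact congrArg₂ (fun X Y : Subgroup G => ⁅X, Y⁆) (conj_smul_eq_self hA) (conj_smul_eq_self hB)

theorem mem_normalizer_of_conj_mem {G : Type*} [Group G] [Finite G] {M : Subgroup G} {g : G}
    (h : ∀ x ∈ M, g * x * g⁻¹ ∈ M) : g ∈ normalizer (M : Set G) := by
  refine mem_normalizer_of_conj_smul_eq (eq_of_le_of_card_ge ?_ (card_conj_smul g M).ge)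
  intro x hx
  rw [mem_conj_smul] at hx
  simpa [mul_assoc] using h _ hx

variable {G : Type*} [Group G] [Finite G] {W : Type*} [CommGroup W] [Finite W] [MulDistribMulAction G W]
  {p r : ℕ}

set_option maxHeartbeats 1600000 in
/-- The corner, for a faithful action. -/
theorem corner_faithful (hp : p.Prime) (hp2 : p ≠ 2) (hr : r.Prime) (hr2 : r ≠ 2) (hrp : r ≠ p) {s : G}
    (hs : s ^ p = 1) (hfix : ∀ w : W, s • w = w → w = 1)
    (hfaith : ∀ g : G, (∀ w : W, g • w = w) → g = 1) (hW2 : Nat.Coprime 2 (Nat.card W))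
    (n : ℕ) : ∀ Q Y : Subgroup G, Nat.card Q + Nat.card Y = n → IsPGroup 2 Q → IsPGroup r Y →
      Y ≤ normalizer (Q : Set G) → s ∈ normalizer (Q : Set G) → s ∈ normalizer (Y : Set G) →
      (∀ a ∈ Y, ∀ b ∈ Y, ⁅a, b⁆ ∈ centralizer (Q : Set G)) →
      (∀ a ∈ Y, a ^ r ∈ centralizer (Q : Set G)) →
      ⁅Y, zpowers s⁆ ≤ centralizer (Q : Set G) := by
  classical
  induction n using Nat.strongRecOn with | ind n ih => ?_
  intro Q Y hn hQ hY hYQ hsQ hsY hab hexp
  have : Fact r.Prime := ⟨hr⟩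
  have : Fact (Nat.Prime 2) := ⟨Nat.prime_two⟩
  obtain ⟨nQ, hnQ⟩ := IsPGroup.iff_card.mp hQ
  obtain ⟨nY, hnY⟩ := IsPGroup.iff_card.mp hY
  have hSdvd : Nat.card (zpowers s) ∣ p := by
    rw [Nat.card_zpowers]; exact orderOf_dvd_of_pow_eq_one hs
  have hSY : (Nat.card (zpowers s)).Coprime (Nat.card Y) := by
    rw [hnY]; exact (((Nat.coprime_primes hp hr).mpr (Ne.symm hrp)).pow_right _).coprime_dvd_left hSdvd
  have hpQ : p.Coprime (Nat.card Q) := by
    rw [hnQ]; exact ((Nat.coprime_primes hp Nat.prime_two).mpr hp2).pow_right _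
  have hQW : (Nat.card Q).Coprime (Nat.card W) := by rw [hnQ]; exact hW2.pow_left _
  have hsolvS : Group.IsSolvable (zpowers s) := Group.isSolvable_of_comm fun a b => mul_comm' a b
  -- `Y = [Y, s]`
  have hY'le : ⁅Y, zpowers s⁆ ≤ Y := commutator_le_of_le_normalizer' (zpowers_le.mpr hsY)
  by_cases hYS : ⁅Y, zpowers s⁆ = Y
  swap
  · have hlt : Nat.card (⁅Y, zpowers s⁆ : Subgroup G) < Nat.card Y := by
      refine lt_of_le_of_ne (Nat.card_le_card_of_injective _ (inclusion_injective hY'le)) fun h => ?_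
      exact hYS (eq_of_le_of_card_ge hY'le h.ge)
    have h := ih _ (by omega) Q ⁅Y, zpowers s⁆ rfl hQ (hY.to_le hY'le) (hY'le.trans hYQ) hsQ
      (zpowers_le.mp (right_le_normalizer_commutator Y (zpowers s)))
      (fun a ha b hb => hab a (hY'le ha) b (hY'le hb)) (fun a ha => hexp a (hY'le ha))
    rwa [commutator_commutator (zpowers_le.mpr hsY) hSY (Or.inl hsolvS)] at h
  rw [hYS]
  -- proper invariant subgroups are centralised
  have hprop : ∀ M : Subgroup G, M ≤ Q → M ≠ Q → Y ≤ normalizer (M : Set G) →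
      s ∈ normalizer (M : Set G) → Y ≤ centralizer (M : Set G) := by
    intro M hMQ hne hYM hsM
    have hlt : Nat.card M < Nat.card Q := by
      refine lt_of_le_of_ne (Nat.card_le_card_of_injective _ (inclusion_injective hMQ)) fun h => ?_
      exact hne (eq_of_le_of_card_ge hMQ h.ge)
    have hcle : centralizer (Q : Set G) ≤ centralizer (M : Set G) := centralizer_le hMQ
    have h := ih _ (by omega) M Y rfl (hQ.to_le hMQ) hY hYM hsM hsY
      (fun a ha b hb => hcle (hab a ha b hb)) (fun a ha => hcle (hexp a ha))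
    rwa [hYS] at h
  by_contra hgoal
  have hsolvY : Group.IsSolvable Y := by
    have := hY.isNilpotent; infer_instance
  have hYQcop : (Nat.card Y).Coprime (Nat.card Q) := by
    rw [hnY, hnQ]; exact Nat.Coprime.pow _ _ ((Nat.coprime_primes hr Nat.prime_two).mpr hr2)
  have hQY : ⁅Q, Y⁆ = Q := by
    by_contra hne
    have hle : ⁅Q, Y⁆ ≤ Q := commutator_le_of_le_normalizer' hYQ
    have h := hprop _ hle hne (right_le_normalizer_commutator Q Y) (mem_normalizer_commutator hsQ hsY)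
    refine hgoal ?_
    rw [← commutator_eq_bot_iff_le_centralizer, commutator_comm,
      ← commutator_commutator hYQ hYQcop (Or.inl hsolvY), commutator_comm,
      commutator_eq_bot_iff_le_centralizer]
    exact h
  let Φ : Subgroup G := (frattini Q).map Q.subtype
  have hΦQ : Φ ≤ Q := map_subtype_le _
  have hΦne : Φ ≠ Q := by
    intro h
    have h1 : frattini Q = ⊤ := map_injective Q.subtype_injective (by
      rw [← MonoidHom.range_eq_map, range_subtype]; exact h)
    have h2 : (⊥ : Subgroup Q) = ⊤ := frattini_nongenerating (by rw [h1, sup_top_eq])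
    refine hgoal fun y _ => mem_centralizer_iff.mpr fun a ha => ?_
    have h3 : (⟨a, ha⟩ : Q) = 1 := mem_bot.mp (h2.symm ▸ mem_top _)
    rw [show a = 1 from congrArg Subtype.val h3, one_mul, mul_one]
  have hNΦ := le_normalizer_map_frattini Q
  have hYΦ : Y ≤ centralizer (Φ : Set G) := hprop Φ hΦQ hΦne (hYQ.trans hNΦ) (hNΦ hsQ)
  have hΦQc : Φ ≤ centralizer (Q : Set G) := by
    rw [← commutator_eq_bot_iff_le_centralizer, commutator_comm]
    have h1 : ⁅⁅Y, Φ⁆, Q⁆ = ⊥ := by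
      rw [commutator_eq_bot_iff_le_centralizer.mpr hYΦ, commutator_bot_left]
    have h2 : ⁅⁅Φ, Q⁆, Y⁆ = ⊥ := by
      refine eq_bot_iff.mpr (le_trans (commutator_mono
        (commutator_le_of_le_normalizer' (le_normalizer.trans hNΦ)) le_rfl) ?_)
      rw [commutator_comm, commutator_eq_bot_iff_le_centralizer.mpr hYΦ]
    have h := commutator_commutator_eq_bot_of_rotate h1 h2
    rwa [hQY] at h
  have hΦc : ∀ a ∈ Φ, ∀ b ∈ Q, b * a = a * b := fun a ha b hb => mem_centralizer_iff.mp (hΦQc ha) b hb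
  have hconjW : ∀ g e : G, (∀ w : W, g • e • w = e • g • w) → g * e = e * g := by
    intro g e h
    have h1 : (e * g)⁻¹ * (g * e) = 1 := hfaith _ fun w => by
      rw [mul_smul, inv_smul_eq_iff, mul_smul, mul_smul, h]
    exact (inv_mul_eq_one.mp h1).symm
  have hsΦ : ∀ a ∈ Φ, s * a = a * s := fun a ha => hconjW _ _
    (commute_of_fpf_abelian hp hs hfix (hNΦ hsQ) (hpQ.coprime_dvd_right (card_dvd_of_le hΦQ))
      (hQW.coprime_dvd_left (card_dvd_of_le hΦQ))
      (fun x hx y hy v => by rw [← mul_smul, ← mul_smul, hΦc y hy x (hΦQ hx)]) a ha)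
  let Z : Subgroup G := ⁅Q, Q⁆
  have hZΦ : Z ≤ Φ := commutator_le.mpr fun a ha b hb =>
    ⟨⁅(⟨a, ha⟩ : Q), ⟨b, hb⟩⁆, PGroupFrattini.commutator_le_frattini hQ
      (commutator_mem_commutator (mem_top _) (mem_top _)), rfl⟩
  by_cases hZ1 : Z = ⊥
  · -- abelian
    have hsQc : s ∈ centralizer (Q : Set G) := mem_centralizer_iff.mpr fun e he => (hconjW _ _
      (commute_of_fpf_abelian hp hs hfix hsQ hpQ hQW (fun x hx y hy v => by
        have h1 : ⁅x, y⁆ ∈ Z := commutator_mem_commutator hx hy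
        rw [hZ1, mem_bot, commutatorElement_eq_one_iff_mul_comm] at h1
        rw [← mul_smul, ← mul_smul, h1]) e he)).symm
    refine hgoal (hYS ▸ commutator_le.mpr fun x hx b hb => ?_)
    have hb' : b ∈ centralizer (Q : Set G) := zpowers_le.mpr hsQc hb
    rw [commutatorElement_def]
    exact mul_mem ((mem_normalizer_iff.mp (normalizer_le_normalizer_centralizer Q (hYQ hx)) b).mp hb')
      (inv_mem hb')
  have hQZc : ∀ a ∈ Z, ∀ b ∈ Q, b * a = a * b := fun a ha b hb => hΦc a (hZΦ ha) b hb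
  have hZexp : ∀ z ∈ Z, z ^ 2 = 1 := by
    have hle : Z ≤ Φ ⊓ {
        carrier := {z | z ∈ Φ ∧ z ^ 2 = 1}
        one_mem' := ⟨Φ.one_mem, one_pow 2⟩
        mul_mem' := fun {x y} hx hy => ⟨Φ.mul_mem hx.1 hy.1, by
          rw [Commute.mul_pow (hΦc y hy.1 x (hΦQ hx.1)), hx.2, hy.2, one_mul]⟩
        inv_mem' := fun {x} hx => ⟨Φ.inv_mem hx.1, by rw [inv_pow, hx.2, inv_one]⟩ } := by
      refine commutator_le.mpr fun a ha b hb => ?_
      have hab' : ⁅a, b⁆ ∈ Φ := hZΦ (commutator_mem_commutator ha hb)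
      refine ⟨hab', hab', ?_⟩
      have ha2 : a ^ 2 ∈ Φ := ⟨(⟨a, ha⟩ : Q) ^ 2, PGroupFrattini.pow_mem_frattini hQ _, rfl⟩
      have h1 : ⁅a ^ 2, b⁆ = 1 := commutatorElement_eq_one_iff_mul_comm.mpr (hΦc _ ha2 b hb).symm
      have h2 : ⁅a ^ 2, b⁆ = a * ⁅a, b⁆ * a⁻¹ * ⁅a, b⁆ := by
        simp only [commutatorElement_def, pow_two]; group
      rw [h2, hΦc _ hab' a ha, mul_inv_cancel_right, ← pow_two] at h1
      exact h1
    exact fun z hz => (hle hz).2.2
  have hZW : (Nat.card Z).Coprime (Nat.card W) :=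
    hQW.coprime_dvd_left (card_dvd_of_le (hZΦ.trans hΦQ))
  have hmove : ∃ e ∈ Z, ∃ w : W, e • w ≠ w := by
    obtain ⟨e, he, he1⟩ := (bot_or_exists_ne_one Z).resolve_left hZ1
    refine ⟨e, he, ?_⟩
    by_contra! h
    exact he1 (hfaith e h)
  obtain ⟨K, hKZ, hK, w₀, hw₀, hw₀1⟩ := exists_piece_ne_bot Z Nat.prime_two hZexp
    (fun a ha b hb => hQZc b hb a (hΦQ (hZΦ ha))) hZW hmove
  let W₀ : Subgroup W := piece Z K
  let T : Subgroup G := centralizer (Z : Set G)
  have hTstab : T ≤ stabSub (Γ := G) W₀ := le_stabSub fun g hg v hv =>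
    smul_piece Z K (centralizer_le_normalizer (Z : Set G) hg)
      (centralizer_le_normalizer (K : Set G) (centralizer_le hKZ hg)) hv
  have hQT : Q ≤ T := fun b hb => mem_centralizer_iff.mpr fun z hz => (hQZc z hz b hb).symm
  have hYT : Y ≤ T := hYΦ.trans (centralizer_le hZΦ)
  have hsT : s ∈ T := mem_centralizer_iff.mpr fun z hz => (hsΦ z (hZΦ hz)).symm
  let K₀ : Subgroup G := Q ⊓ fixingSubgroup G (W₀ : Set W)
  have hK₀ : ∀ {x : G}, x ∈ K₀ ↔ x ∈ Q ∧ ∀ v ∈ W₀, x • v = v := fun {x} => by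
    show x ∈ Q ∧ x ∈ fixingSubgroup G (W₀ : Set W) ↔ _
    rw [mem_fixingSubgroup_iff]; rfl
  have hK₀N : ∀ g, g ∈ T → g ∈ normalizer (Q : Set G) → g ∈ normalizer (K₀ : Set G) := by
    intro g hgT hgQ
    refine mem_normalizer_of_conj_mem fun x hx => ?_
    rw [hK₀] at hx ⊢
    refine ⟨(mem_normalizer_iff.mp hgQ x).mp hx.1, fun v hv => ?_⟩
    rw [mul_smul, mul_smul, hx.2 _ ((inv_mem (hTstab hgT) v).mpr hv), smul_inv_smul]
  have hK₀ne : K₀ ≠ Q := by
    intro h
    refine hw₀1 (pow_injective_of_coprime hZW ?_)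
    rw [← orbProd_of_fixed Z fun z hz => (hK₀.mp (h.symm ▸ hΦQ (hZΦ hz))).2 w₀ hw₀]
    exact hw₀.2
  -- the Frattini quotient
  haveI : IsMulCommutative (Q ⧸ frattini Q) :=
    (Normal.quotient_commutative_iff_commutator_le (N := frattini Q)).mpr
      (PGroupFrattini.commutator_le_frattini hQ)
  haveI : Finite (MulAut (Q ⧸ frattini Q)) :=
    Finite.of_injective (fun σ : MulAut (Q ⧸ frattini Q) => (σ : Q ⧸ frattini Q → Q ⧸ frattini Q))
      DFunLike.coe_injective
  let η := frattiniAct Q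
  let E : Subgroup (MulAut (Q ⧸ frattini Q)) := (Y.subgroupOf (normalizer (Q : Set G))).map η
  let σ : MulAut (Q ⧸ frattini Q) := η ⟨s, hsQ⟩
  have hηone : ∀ g : normalizer (Q : Set G), (g : G) ∈ centralizer (Q : Set G) → η g = 1 := by
    intro g hg
    refine MulEquiv.ext fun u => ?_
    obtain ⟨a, rfl⟩ := QuotientGroup.mk'_surjective _ u
    show frattiniAct Q g (a : Q ⧸ frattini Q) = (a : Q ⧸ frattini Q)
    rw [frattiniAct_mk]
    congr 1
    apply Subtype.ext
    rw [coe_normAct_apply, ← mem_centralizer_iff.mp hg a a.2, mul_inv_cancel_right]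
  have hU2 : ∀ u : Q ⧸ frattini Q, u * u = 1 := fun u => by
    obtain ⟨a, rfl⟩ := QuotientGroup.mk'_surjective _ u
    rw [← pow_two, ← map_pow]
    exact (QuotientGroup.eq_one_iff _).mpr (PGroupFrattini.pow_mem_frattini hQ a)
  have hEexp : ∀ e ∈ E, e ^ r = 1 := by
    rintro _ ⟨x, hx, rfl⟩
    rw [← map_pow]
    exact hηone _ (hexp x hx)
  have hEc : ∀ a ∈ E, ∀ b ∈ E, a * b = b * a := by
    rintro _ ⟨x, hx, rfl⟩ _ ⟨y, hy, rfl⟩
    refine commutatorElement_eq_one_iff_mul_comm.mp ?_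
    rw [← map_commutatorElement]
    exact hηone _ (hab x hx y hy)
  have hUcop : (Nat.card E).Coprime (Nat.card (Q ⧸ frattini Q)) := by
    refine (hYQcop.coprime_dvd_left ?_).coprime_dvd_right (card_quotient_dvd_card _)
    rw [← Nat.card_congr (subgroupOfEquivOfLe hYQ).toEquiv]
    exact card_map_dvd _ η
  have hfixU : ∀ u : Q ⧸ frattini Q, (∀ e ∈ E, e u = u) → u = 1 := by
    intro u hu
    let D : Subgroup G := ((MonoidHom.mk' (orbProd E) (orbProd_mul E)).comp
      (QuotientGroup.mk' (frattini Q))).ker.map Q.subtype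
    have hD : Q ≤ D := by
      refine le_of_eq_of_le hQY.symm (commutator_le.mpr fun a ha x hx => ?_)
      refine ⟨⟨a, ha⟩ * (normAct Q ⟨x, hYQ hx⟩ ⟨a, ha⟩)⁻¹, ?_, ?_⟩
      · rw [SetLike.mem_coe, MonoidHom.mem_ker, MonoidHom.comp_apply, MonoidHom.mk'_apply, map_mul, map_inv,
          orbProd_mul, orbProd_inv, mul_inv_eq_one]
        exact (orbProd_smul_mem E (mem_map_of_mem η (show (⟨x, hYQ hx⟩ : normalizer (Q : Set G)) ∈
          Y.subgroupOf _ from hx)) _).symm
      · show a * (x * a * x⁻¹)⁻¹ = ⁅a, x⁆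
        rw [commutatorElement_def]; group
    obtain ⟨a, rfl⟩ := QuotientGroup.mk'_surjective _ u
    obtain ⟨b, hb, hba⟩ := hD a.2
    rw [Q.subtype_injective hba] at hb
    refine pow_injective_of_coprime hUcop ?_
    rw [← orbProd_of_fixed (V := Q ⧸ frattini Q) E hu]
    exact hb
  have hpropU : ∀ M : Subgroup G, M ≤ Q → M ≠ Q → Y ≤ normalizer (M : Set G) →
      s ∈ normalizer (M : Set G) → ∀ a : Q, (a : G) ∈ M → (a : Q ⧸ frattini Q) = 1 := by
    intro M h1 h2 h3 h4 a ha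
    refine hfixU _ ?_
    rintro _ ⟨x, hx, rfl⟩
    show frattiniAct Q x (a : Q ⧸ frattini Q) = _
    rw [frattiniAct_mk]
    congr 1
    apply Subtype.ext
    have hc : (a : G) * (x : G) = (x : G) * a := mem_centralizer_iff.mp (hprop M h1 h2 h3 h4 hx) a ha
    rw [coe_normAct_apply, ← hc, mul_inv_cancel_right]
  -- the form
  let χ : G → ZMod 2 := fun z => if z ∈ K then 0 else 1
  have hχ : ∀ a ∈ Z, ∀ b ∈ Z, χ (a * b) = χ a + χ b := by
    intro a ha b hb
    have h := mul_mem_iff_of_index_two (H := K.subgroupOf Z) hK (a := ⟨a, ha⟩) (b := ⟨b, hb⟩)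
    simp only [mem_subgroupOf, Subgroup.coe_mul] at h
    simp only [χ]
    have h11 : (0 : ZMod 2) = 1 + 1 := rfl
    by_cases h1 : a ∈ K <;> by_cases h2 : b ∈ K <;> simp [h, h1, h2] <;> exact h11
  have hcZ : ∀ a ∈ Q, ∀ b ∈ Q, ⁅a, b⁆ ∈ Z := fun a ha b hb => commutator_mem_commutator ha hb
  have hcmul : ∀ a ∈ Q, ∀ a' ∈ Q, ∀ b ∈ Q, χ ⁅a * a', b⁆ = χ ⁅a, b⁆ + χ ⁅a', b⁆ := by
    intro a ha a' ha' b hb
    have e : ⁅a * a', b⁆ = a * ⁅a', b⁆ * a⁻¹ * ⁅a, b⁆ := by simp only [commutatorElement_def]; group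
    rw [e, hQZc _ (hcZ a' ha' b hb) a ha, mul_inv_cancel_right, hχ _ (hcZ a' ha' b hb) _ (hcZ a ha b hb),
      add_comm]
  have hcswap : ∀ a ∈ Q, ∀ b ∈ Q, χ ⁅b, a⁆ = χ ⁅a, b⁆ := by
    intro a ha b hb
    rw [← commutatorElement_inv]
    simp only [χ, inv_mem_iff]
  have hcwd : ∀ a a' : Q, (a : Q ⧸ frattini Q) = a' → ∀ b ∈ Q, ⁅(a : G), b⁆ = ⁅(a' : G), b⁆ := by
    intro a a' h b hb
    have hφ : ((a⁻¹ * a' : Q) : G) ∈ Φ := mem_map_of_mem Q.subtype (QuotientGroup.eq.mp h)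
    have e : (a' : G) = a * ((a⁻¹ * a' : Q) : G) := by simp
    have h1 : ⁅((a⁻¹ * a' : Q) : G), b⁆ = 1 :=
      commutatorElement_eq_one_iff_mul_comm.mpr (hΦc _ hφ b hb).symm
    rw [e, show ∀ x y z : G, ⁅x * y, z⁆ = x * ⁅y, z⁆ * x⁻¹ * ⁅x, z⁆ from
      fun x y z => by simp only [commutatorElement_def]; group, h1]
    group
  let β : Q ⧸ frattini Q → Q ⧸ frattini Q → ZMod 2 := fun u v => χ ⁅(u.out : G), (v.out : G)⁆
  have hβ : ∀ a b : Q, β a b = χ ⁅(a : G), (b : G)⁆ := by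
    intro a b
    show χ ⁅((QuotientGroup.mk a : Q ⧸ frattini Q).out : G), ((QuotientGroup.mk b : Q ⧸ frattini Q).out : G)⁆ = _
    rw [hcwd _ a (QuotientGroup.out_eq' _) _ (SetLike.coe_mem _),
      hcswap _ (SetLike.coe_mem _) _ a.2, hcwd _ b (QuotientGroup.out_eq' _) _ a.2, hcswap _ a.2 _ b.2]
  have hβinv : ∀ g : normalizer (Q : Set G), (g : G) ∈ T → ∀ u v, β (η g u) (η g v) = β u v := by
    intro g hg u v
    obtain ⟨a, rfl⟩ := QuotientGroup.mk'_surjective _ u
    obtain ⟨b, rfl⟩ := QuotientGroup.mk'_surjective _ v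
    show β (frattiniAct Q g (a : Q ⧸ frattini Q)) (frattiniAct Q g (b : Q ⧸ frattini Q)) =
      β (a : Q ⧸ frattini Q) (b : Q ⧸ frattini Q)
    rw [frattiniAct_mk, frattiniAct_mk, hβ, hβ]
    congr 1
    rw [coe_normAct_apply, coe_normAct_apply,
      show ⁅(g : G) * a * (g : G)⁻¹, (g : G) * b * (g : G)⁻¹⁆ = (g : G) * ⁅(a : G), (b : G)⁆ * (g : G)⁻¹ by
        simp only [commutatorElement_def]; group,
      ← mem_centralizer_iff.mp hg _ (hcZ a a.2 b b.2), mul_inv_cancel_right]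
  have hσE : σ ∈ normalizer (E : Set (MulAut (Q ⧸ frattini Q))) :=
    le_normalizer_map _ (mem_map_of_mem η (by
      rw [mem_normalizer_iff]; exact fun z => mem_normalizer_iff.mp hsY (z : G)))
  have hσp : σ ^ p = 1 := by
    rw [← map_pow, show (⟨s, hsQ⟩ : normalizer (Q : Set G)) ^ p = 1 from Subtype.ext hs, map_one]
  have hEσ : ⁅E, zpowers σ⁆ = E := by
    have h1 : zpowers σ = ((zpowers s).subgroupOf (normalizer (Q : Set G))).map η := by
      rw [← MonoidHom.map_zpowers η (⟨s, hsQ⟩ : normalizer (Q : Set G))]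
      congr 1
      apply map_injective (normalizer (Q : Set G)).subtype_injective
      rw [MonoidHom.map_zpowers, map_subgroupOf_eq_of_le (zpowers_le.mpr hsQ)]
      rfl
    rw [h1, ← map_commutator]
    congr 1
    apply map_injective (normalizer (Q : Set G)).subtype_injective
    rw [map_commutator, map_subgroupOf_eq_of_le hYQ,
      map_subgroupOf_eq_of_le (zpowers_le.mpr hsQ), hYS]
  haveI : IsMulCommutative E := ⟨⟨fun a b => Subtype.ext (hEc a a.2 b b.2)⟩⟩
  have hσcop : (Nat.card (zpowers σ)).Coprime (Nat.card E) := by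
    rw [Nat.card_zpowers]
    refine ((?_ : p.Coprime (Nat.card E))).coprime_dvd_left (orderOf_dvd_of_pow_eq_one hσp)
    refine Nat.Coprime.coprime_dvd_right ?_ (show p.Coprime (Nat.card Y) by
      rw [hnY]; exact ((Nat.coprime_primes hp hr).mpr (Ne.symm hrp)).pow_right _)
    rw [← Nat.card_congr (subgroupOfEquivOfLe hYQ).toEquiv]
    exact card_map_dvd _ η
  have hsfix : ∀ x ∈ E, σ * x = x * σ → x = 1 := fun x hx hc => by
    have h : x ∈ E ⊓ centralizer (zpowers σ : Set (MulAut (Q ⧸ frattini Q))) ⊓ ⁅E, zpowers σ⁆ :=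
      ⟨⟨hx, mem_centralizer_zpowers hc⟩, hEσ.symm ▸ hx⟩
    rwa [inf_centralizer_inf_commutator (zpowers_le.mpr hσE) hσcop, mem_bot] at h
  refine false_of_corner_module (Γ := MulAut (Q ⧸ frattini Q)) (U := Q ⧸ frattini Q) (E := E) (s := σ)
    hp hp2 hr hr2 hU2 hEexp hEc ?_ hσp hσE hsfix ?_ β ?_ ?_ ?_ ?_ ?_ (hβinv _ hsT) ?_
  · -- nontrivial
    by_contra hcon
    push Not at hcon
    refine hgoal fun x hx => mem_centralizer_of_frattiniAct Q (hYQ hx)
      (hYQcop.coprime_dvd_left (orderOf_dvd_natCard Y hx)) fun a => ?_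
    exact hcon _ (mem_map_of_mem η (show (⟨x, hYQ hx⟩ : normalizer (Q : Set G)) ∈ Y.subgroupOf _ from hx)) _
  · intro E0 hE0 hσ0 hE0ne u hu
    let Y0 : Subgroup G := ((Y.subgroupOf (normalizer (Q : Set G))) ⊓ E0.comap η).map (Subgroup.subtype _)
    have hY0 : Y0 ≤ Y := by rintro _ ⟨x, hx, rfl⟩; exact hx.1
    by_cases hY0Y : Y0 = Y
    · refine hfixU u ?_
      rintro _ ⟨x, hx, rfl⟩
      obtain ⟨x', hx', hxe⟩ := hY0Y.symm ▸ (show (x : G) ∈ Y from hx)
      rw [Subtype.ext hxe] at hx'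
      exact hu _ hx'.2
    exfalso
    have hlt : Nat.card Y0 < Nat.card Y := by
      refine lt_of_le_of_ne (Nat.card_le_card_of_injective _ (inclusion_injective hY0)) fun h => ?_
      exact hY0Y (eq_of_le_of_card_ge hY0 h.ge)
    have hs0 : s ∈ normalizer (Y0 : Set G) := by
      refine mem_normalizer_of_conj_mem ?_
      rintro _ ⟨x, hx, rfl⟩
      refine ⟨⟨s, hsQ⟩ * x * (⟨s, hsQ⟩)⁻¹,
        mem_inf.mpr ⟨(mem_normalizer_iff.mp hsY (x : G)).mp hx.1, mem_comap.mpr ?_⟩, rfl⟩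
      rw [map_mul, map_mul, map_inv]
      exact (mem_normalizer_iff.mp hσ0 (η x)).mp (mem_comap.mp (mem_inf.mp hx).2)
    have h := ih _ (by omega) Q Y0 rfl hQ (hY.to_le hY0) (hY0.trans hYQ) hsQ hs0
      (fun a ha b hb => hab a (hY0 ha) b (hY0 hb)) (fun a ha => hexp a (hY0 ha))
    refine hE0ne ((eq_bot_iff_forall _).mpr fun e he => ?_)
    obtain ⟨x, hx, rfl⟩ := hE0 he
    refine hsfix _ (mem_map_of_mem η hx) ?_
    have h1 := hηone ⁅x, (⟨s, hsQ⟩ : normalizer (Q : Set G))⁆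
      (h (commutator_mem_commutator ⟨x, ⟨hx, he⟩, rfl⟩ (mem_zpowers s)))
    rw [map_commutatorElement, commutatorElement_eq_one_iff_mul_comm] at h1
    exact h1.symm
  · intro u v w
    obtain ⟨a, rfl⟩ := QuotientGroup.mk'_surjective _ u
    obtain ⟨b, rfl⟩ := QuotientGroup.mk'_surjective _ v
    obtain ⟨c, rfl⟩ := QuotientGroup.mk'_surjective _ w
    rw [← map_mul]
    show β ((a * b : Q) : Q ⧸ frattini Q) c = β a c + β b c
    rw [hβ, hβ, hβ]
    exact hcmul a a.2 b b.2 c c.2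
  · intro u v w
    obtain ⟨a, rfl⟩ := QuotientGroup.mk'_surjective _ u
    obtain ⟨b, rfl⟩ := QuotientGroup.mk'_surjective _ v
    obtain ⟨c, rfl⟩ := QuotientGroup.mk'_surjective _ w
    rw [← map_mul]
    show β a ((b * c : Q) : Q ⧸ frattini Q) = β a b + β a c
    rw [hβ, hβ, hβ, ← hcswap _ a.2 _ (b * c : Q).2, ← hcswap _ a.2 _ b.2, ← hcswap _ a.2 _ c.2]
    exact hcmul b b.2 c c.2 a a.2
  · intro u
    obtain ⟨a, rfl⟩ := QuotientGroup.mk'_surjective _ u
    show β a a = 0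
    rw [hβ, show ⁅(a : G), (a : G)⁆ = 1 by simp [commutatorElement_def]]
    simp [χ, K.one_mem]
  · intro u hu
    obtain ⟨a, rfl⟩ := QuotientGroup.mk'_surjective _ u
    have hχ0 : ∀ z, χ z = 0 ↔ z ∈ K := fun z => by simp [χ]
    let R₀ : Subgroup G :=
      { carrier := {x | x ∈ Q ∧ ∀ b ∈ Q, χ ⁅x, b⁆ = 0}
        one_mem' := ⟨Q.one_mem, fun b _ => by simp [χ, K.one_mem]⟩
        mul_mem' := fun {x y} hx hy => ⟨Q.mul_mem hx.1 hy.1, fun b hb => by
          rw [hcmul x hx.1 y hy.1 b hb, hx.2 b hb, hy.2 b hb, add_zero]⟩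
        inv_mem' := fun {x} hx => ⟨Q.inv_mem hx.1, fun b hb => by
          have h := hcmul x hx.1 _ (Q.inv_mem hx.1) b hb
          rw [mul_inv_cancel, hx.2 b hb, zero_add, commutatorElement_one_left] at h
          rw [← h]; simp [χ, K.one_mem]⟩ }
    have hRinv : ∀ g, g ∈ T → g ∈ normalizer (Q : Set G) → g ∈ normalizer (R₀ : Set G) := by
      intro g hgT hgQ
      refine mem_normalizer_of_conj_mem ?_
      intro x hx
      refine ⟨(mem_normalizer_iff.mp hgQ x).mp hx.1, fun b hb => ?_⟩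
      have hb' : g⁻¹ * b * g ∈ Q := by
        have := (mem_normalizer_iff.mp (inv_mem hgQ) b).mp hb
        rwa [inv_inv] at this
      have h := hx.2 _ hb'
      have e : ⁅g * x * g⁻¹, b⁆ = g * ⁅x, g⁻¹ * b * g⁆ * g⁻¹ := by
        simp only [commutatorElement_def]; group
      rw [e, ← mem_centralizer_iff.mp hgT _ (hcZ x hx.1 _ hb'), mul_inv_cancel_right]
      exact h
    refine hpropU R₀ (fun x hx => hx.1) (fun h => ?_) (fun y hy => hRinv y (hYT hy) (hYQ hy))
      (hRinv s hsT hsQ) a ⟨a.2, fun b hb => ?_⟩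
    · have hle : Z ≤ K := commutator_le.mpr fun x hx b hb => (hχ0 _).mp ((h.symm ▸ hx : x ∈ R₀).2 b hb)
      rw [relIndex_eq_one.mpr hle] at hK
      omega
    · have h := hu ((⟨b, hb⟩ : Q) : Q ⧸ frattini Q)
      rw [show (QuotientGroup.mk' (frattini Q)) a = (a : Q ⧸ frattini Q) from rfl, hβ] at h
      exact h
  · rintro _ ⟨x, hx, rfl⟩
    exact hβinv x (hYT hx)
  · intro u hu
    obtain ⟨a, rfl⟩ := QuotientGroup.mk'_surjective _ u
    let sN : normalizer (Q : Set G) := ⟨s, hsQ⟩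
    let o : ℕ → Q := fun i => normAct Q (sN ^ i) a
    have ho : ∀ i : ℕ, (σ ^ i) (a : Q ⧸ frattini Q) = (o i : Q ⧸ frattini Q) := fun i => by
      rw [← map_pow]; exact frattiniAct_mk Q _ a
    have horb : ∀ i j : ℕ, χ ⁅(o i : G), (o j : G)⁆ = 0 := by
      intro i j
      rw [← hβ, ← ho, ← ho]
      have hinv : ∀ (m : ℕ) u v, β ((σ ^ m) u) ((σ ^ m) v) = β u v := fun m u v => by
        rw [← map_pow]; exact hβinv _ (pow_mem hsT m) u v
      have hj : σ ^ j = σ ^ i * σ ^ (j + (p - 1) * i) := by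
        rw [← pow_add, pow_eq_pow_mod (i + (j + (p - 1) * i)) hσp, pow_eq_pow_mod j hσp]
        congr 1
        have hp1 := hp.one_le
        rw [show i + (j + (p - 1) * i) = j + p * i by
          conv_rhs => rw [show p = p - 1 + 1 by omega]
          ring, Nat.add_mul_mod_self_left]
      rw [hj, MulAut.mul_apply, hinv]
      exact hu _
    let O : Set G := Set.range fun i : ℕ => (o i : G)
    have hOQ : closure O ≤ Q := (closure_le _).mpr (by rintro _ ⟨i, rfl⟩; exact (o i).2)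
    have hOK : ∀ x ∈ closure O, ∀ y ∈ closure O, χ ⁅x, y⁆ = 0 := by
      have key : ∀ y ∈ Q, (∀ x ∈ O, χ ⁅x, y⁆ = 0) → ∀ x ∈ closure O, χ ⁅x, y⁆ = 0 := by
        intro y hy h x hx
        induction hx using closure_induction with
        | mem z hz => exact h z hz
        | one => simp [χ, K.one_mem]
        | mul z z' hz hz' h1 h2 => rw [hcmul z (hOQ hz) z' (hOQ hz') y hy, h1, h2, add_zero]
        | inv z hz h1 =>
          have h2 := hcmul z (hOQ hz) _ (Q.inv_mem (hOQ hz)) y hy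
          rw [mul_inv_cancel, h1, zero_add, commutatorElement_one_left] at h2
          rw [← h2]; simp [χ, K.one_mem]
      intro x hx y hy
      refine key y (hOQ hy) (fun z hz => ?_) x hx
      rw [hcswap y (hOQ hy) z (hOQ (Subgroup.subset_closure hz))]
      refine key z (hOQ (Subgroup.subset_closure hz)) (fun z' hz' => ?_) y hy
      obtain ⟨i, rfl⟩ := hz'
      obtain ⟨j, rfl⟩ := hz
      exact horb i j
    have hsO : s ∈ normalizer (closure O : Set G) := by
      refine mem_normalizer_of_conj_mem ?_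
      show closure O ≤ (closure O).comap (MulAut.conj s).toMonoidHom
      rw [closure_le]
      rintro _ ⟨i, rfl⟩
      refine Subgroup.subset_closure ⟨i + 1, ?_⟩
      show ((normAct Q (sN ^ (i + 1)) a : Q) : G) = s * ((normAct Q (sN ^ i) a : Q) : G) * s⁻¹
      rw [coe_normAct_apply, coe_normAct_apply, pow_succ']
      show s * ((sN ^ i : normalizer (Q : Set G)) : G) * a * (s * ((sN ^ i : normalizer (Q : Set G)) : G))⁻¹ = _
      group
    have hOstab : closure O ≤ stabSub (Γ := G) W₀ := hOQ.trans (hQT.trans hTstab)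
    have hfix₀ : ∀ v : W₀, (⟨s, hTstab hsT⟩ : stabSub (Γ := G) W₀) • v = v → v = 1 :=
      fun v hv => Subtype.ext (hfix v (congrArg Subtype.val hv))
    have key := commute_of_fpf_abelian (Γ := stabSub (Γ := G) W₀) (V := W₀) hp
      (s := ⟨s, hTstab hsT⟩) (Subtype.ext hs) hfix₀ (E := (closure O).subgroupOf (stabSub (Γ := G) W₀))
      (by rw [mem_normalizer_iff]; exact fun z => mem_normalizer_iff.mp hsO (z : G))
      (by rw [Nat.card_congr (subgroupOfEquivOfLe hOstab).toEquiv]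
          exact hpQ.coprime_dvd_right (card_dvd_of_le hOQ))
      (by rw [Nat.card_congr (subgroupOfEquivOfLe hOstab).toEquiv]
          exact (hQW.coprime_dvd_left (card_dvd_of_le hOQ)).coprime_dvd_right (card_subgroup_dvd_card W₀))
      (by
        intro x hx y hy v
        apply Subtype.ext
        show (x : G) • (y : G) • (v : W) = (y : G) • (x : G) • (v : W)
        have h : ⁅(x : G), (y : G)⁆ ∈ K := by
          have h0 := hOK _ hx _ hy
          simpa [χ] using h0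
        have h3 : ⁅(x : G), (y : G)⁆ • ((y : G) • (x : G) • (v : W)) = (y : G) • (x : G) • (v : W) :=
          v.2.1 |> fun _ => ((smul_piece Z K (centralizer_le_normalizer (Z : Set G) (hQT (hOQ hy)))
            (centralizer_le_normalizer (K : Set G) (centralizer_le hKZ (hQT (hOQ hy))))
            (smul_piece Z K (centralizer_le_normalizer (Z : Set G) (hQT (hOQ hx)))
              (centralizer_le_normalizer (K : Set G) (centralizer_le hKZ (hQT (hOQ hx)))) v.2)).1 _ h)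
        rw [← h3, smul_smul, smul_smul, smul_smul]
        congr 1
        simp only [commutatorElement_def]; group)
      ⟨a, hQT.trans hTstab a.2⟩ (by
        show (a : G) ∈ closure O
        refine Subgroup.subset_closure ⟨0, ?_⟩
        show ((normAct Q (sN ^ 0) a : Q) : G) = a
        rw [pow_zero, map_one]; rfl)
    show frattiniAct Q sN (a : Q ⧸ frattini Q) = (a : Q ⧸ frattini Q)
    rw [frattiniAct_mk, ← mul_inv_eq_one, ← QuotientGroup.mk_inv, ← QuotientGroup.mk_mul]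
    refine hpropU K₀ inf_le_left hK₀ne (fun y hy => hK₀N y (hYT hy) (hYQ hy)) (hK₀N s hsT hsQ) _ ?_
    rw [hK₀]
    refine ⟨SetLike.coe_mem _, fun v hv => ?_⟩
    show (s * (a : G) * s⁻¹ * (a : G)⁻¹) • v = v
    have hv1 : (a : G)⁻¹ • v ∈ W₀ := (inv_mem (hTstab (hQT a.2)) v).mpr hv
    have hv2 : s⁻¹ • (a : G)⁻¹ • v ∈ W₀ := (inv_mem (hTstab hsT) _).mpr hv1
    have h1 : s • (a : G) • s⁻¹ • (a : G)⁻¹ • v = (a : G) • s • s⁻¹ • (a : G)⁻¹ • v :=
      congrArg Subtype.val (key ⟨_, hv2⟩)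
    rw [mul_smul, mul_smul, mul_smul, h1, smul_inv_smul, smul_inv_smul]

/-- The corner: the commutators of `Y` with a fixed-point-free `s` commute with `Q` as operators. -/
theorem corner (hp : p.Prime) (hp2 : p ≠ 2) (hr : r.Prime) (hr2 : r ≠ 2) (hrp : r ≠ p) {s : G}
    (hs : s ^ p = 1) (hfix : ∀ w : W, s • w = w → w = 1) (hW2 : Nat.Coprime 2 (Nat.card W))
    {Q Y : Subgroup G} (hQ : IsPGroup 2 Q) (hY : IsPGroup r Y) (hYQ : Y ≤ normalizer (Q : Set G))
    (hsQ : s ∈ normalizer (Q : Set G)) (hsY : s ∈ normalizer (Y : Set G))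
    (hab : ∀ a ∈ Y, ∀ b ∈ Y, ⁅a, b⁆ ∈ centralizer (Q : Set G))
    (hexp : ∀ a ∈ Y, a ^ r ∈ centralizer (Q : Set G)) :
    ∀ z ∈ ⁅Y, zpowers s⁆, ∀ y ∈ Q, ∀ w : W, z • y • w = y • z • w := by
  let ρ : G →* MulAut W := MulDistribMulAction.toMulAut G W
  haveI : Finite (MulAut W) := Finite.of_injective (fun σ : MulAut W => (σ : W → W)) DFunLike.coe_injective
  have hcent : ∀ g ∈ centralizer (Q : Set G), ρ g ∈ centralizer ((Q.map ρ : Subgroup (MulAut W)) : Set (MulAut W)) := by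
    intro g hg
    rw [mem_centralizer_iff]
    rintro _ ⟨y, hy, rfl⟩
    rw [← map_mul, ← map_mul, mem_centralizer_iff.mp hg y hy]
  have key := corner_faithful (G := MulAut W) (W := W) hp hp2 hr hr2 hrp (s := ρ s)
    (by rw [← map_pow, hs, map_one]) hfix (fun g hg => MulEquiv.ext hg) hW2 _ (Q.map ρ) (Y.map ρ) rfl
    (hQ.map ρ) (hY.map ρ) ((map_mono hYQ).trans (le_normalizer_map _))
    (le_normalizer_map _ (mem_map_of_mem _ hsQ)) (le_normalizer_map _ (mem_map_of_mem _ hsY))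
    (by rintro _ ⟨a, ha, rfl⟩ _ ⟨b, hb, rfl⟩; rw [← map_commutatorElement]; exact hcent _ (hab a ha b hb))
    (by rintro _ ⟨a, ha, rfl⟩; rw [← map_pow]; exact hcent _ (hexp a ha))
  intro z hz y hy w
  have h1 : ρ z ∈ ⁅Y.map ρ, zpowers (ρ s)⁆ := by
    rw [← MonoidHom.map_zpowers, ← map_commutator]; exact mem_map_of_mem ρ hz
  exact (DFunLike.congr_fun (mem_centralizer_iff.mp (key h1) _ (mem_map_of_mem ρ hy)) w).symm

end Cfsg.Agent.Lib.FitHeight
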