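import Cfsg.Agent.Lib.FitHeight.CornerBasic
import Mathlib.FieldTheory.ChevalleyWarning
import Mathlib.FieldTheory.IsAlgClosed.AlgebraicClosure
import Mathlib.LinearAlgebra.Charpoly.Basic
import Mathlib.FieldTheory.Finiteness

/-! No elementary abelian group of odd order, normalised by an element `s` of odd prime order
without fixed points on it, acts on a symplectic space over the field with two elements in which
the only isotropic `s`-orbits are the fixed points. -/

set_option autoImplicit false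

namespace Cfsg.Agent.Lib.FitHeight

open scoped Pointwise
open Subgroup Cfsg.Agent.Lib.Coprime Polynomial

variable {Γ : Type*} [Group Γ] {M : Type*} [AddCommGroup M] [Module (ZMod 2) M]

theorem zmod_two_smul_cases (c : ZMod 2) (x : M) : c • x = 0 ∨ c • x = x := by
  rcases (by decide : ∀ c : ZMod 2, c = 0 ∨ c = 1) c with rfl | rfl
  · exact Or.inl (zero_smul _ x)
  · exact Or.inr (one_smul _ x)

/-- Chevalley-Warning for a symplectic form over the field with two elements. -/
theorem finrank_lt_of_isotropic [Finite M] {p : ℕ} (hp : p.Prime) (hp2 : p ≠ 2)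
    (B : M →ₗ[ZMod 2] M →ₗ[ZMod 2] ZMod 2) (halt : ∀ a, B a a = 0)
    (S : Module.End (ZMod 2) M) (hS : S ^ p = 1) (hinv : ∀ a b, B (S a) (S b) = B a b)
    (hiso : ∀ u, (∀ i : ℕ, B u ((S ^ i) u) = 0) → S u = u) (L : Submodule (ZMod 2) M)
    (hL : ∀ u ∈ L, S u = u → u = 0) : Module.finrank (ZMod 2) L < p := by
  classical
  by_contra hd
  push Not at hd
  let d := Module.finrank (ZMod 2) L
  let e : Module.Basis (Fin d) (ZMod 2) L := Module.finBasis (ZMod 2) L
  let h := (p - 1) / 2
  let c : Fin h → Fin d → Fin d → ZMod 2 := fun j a b => B (e a : M) ((S ^ ((j : ℕ) + 1)) (e b : M))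
  let f : Fin h → MvPolynomial (Fin d) (ZMod 2) := fun j =>
    ∑ a, ∑ b, MvPolynomial.C (c j a b) * MvPolynomial.X a * MvPolynomial.X b
  let u : (Fin d → ZMod 2) → L := fun x => ∑ a, x a • e a
  have hu : ∀ x, (u x : M) = ∑ a, x a • (e a : M) := fun x => by
    simp only [u, Submodule.coe_sum, Submodule.coe_smul]
  have heval : ∀ j x, MvPolynomial.eval x (f j) = B (u x : M) ((S ^ ((j : ℕ) + 1)) (u x : M)) := by
    intro j x
    simp only [f, map_sum, map_mul, MvPolynomial.eval_C, MvPolynomial.eval_X, hu, map_smul,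
      LinearMap.sum_apply, LinearMap.smul_apply, smul_eq_mul, Finset.mul_sum, c]
    rw [Finset.sum_comm]
    refine Finset.sum_congr rfl fun a _ => Finset.sum_congr rfl fun b _ => ?_
    ring
  have hdeg : (∑ j, (f j).totalDegree) < Fintype.card (Fin d) := by
    have h1 : ∀ j, (f j).totalDegree ≤ 2 := fun j => by
      refine MvPolynomial.totalDegree_finsetSum_le fun a _ =>
        MvPolynomial.totalDegree_finsetSum_le fun b _ => ?_
      refine (MvPolynomial.totalDegree_mul _ _).trans ?_
      refine (Nat.add_le_add (MvPolynomial.totalDegree_mul _ _) le_rfl).trans ?_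
      simp [MvPolynomial.totalDegree_C, MvPolynomial.totalDegree_X]
    refine lt_of_le_of_lt (Finset.sum_le_card_nsmul _ _ 2 fun j _ => h1 j) ?_
    have hodd : p % 2 = 1 := Nat.odd_iff.mp (hp.odd_of_ne_two hp2)
    have := hp.two_le
    simp only [Finset.card_univ, Fintype.card_fin, smul_eq_mul, h]
    omega
  have heven := char_dvd_card_solutions_of_fintype_sum_lt (K := ZMod 2) 2 hdeg
  let Sol := {x : Fin d → ZMod 2 // ∀ j, MvPolynomial.eval x (f j) = 0}
  have h0 : ∀ j, MvPolynomial.eval (0 : Fin d → ZMod 2) (f j) = 0 := fun j => by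
    simp [f, map_sum]
  have hpos : 0 < Fintype.card Sol := Fintype.card_pos_iff.mpr ⟨⟨0, h0⟩⟩
  have h2 : 2 ∣ Fintype.card Sol := by convert heven
  obtain ⟨⟨x, hx⟩, hx0⟩ := Fintype.exists_ne_of_one_lt_card
    (show 1 < Fintype.card Sol by omega) ⟨0, h0⟩
  have hxne : u x ≠ 0 := fun he => hx0 (Subtype.ext (funext fun a => by
    have h3 := congrArg (fun z => e.repr z a) he
    simpa [u, Module.Basis.repr_self, Finsupp.single_apply] using h3))
  refine hxne (Subtype.ext (hL _ (u x).2 (hiso _ ?_)))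
  have hsymm : ∀ a b, B a b = B b a := fun a b => by
    have h3 := halt (a + b)
    simp only [map_add, LinearMap.add_apply, halt, zero_add, add_zero] at h3
    rw [← ZMod.neg_eq_self_mod_two (B b a)]
    exact eq_neg_of_add_eq_zero_left (by rw [← h3, add_comm])
  have hinvn : ∀ (n : ℕ) a b, B ((S ^ n) a) ((S ^ n) b) = B a b := by
    intro n
    induction n with
    | zero => intro a b; rfl
    | succ n ih => intro a b; rw [pow_succ', Module.End.mul_apply, Module.End.mul_apply, hinv, ih]
  have hsmall : ∀ i < p, B (u x : M) ((S ^ i) (u x : M)) = 0 := by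
    intro i hi
    rcases Nat.eq_zero_or_pos i with rfl | hi0
    · exact halt _
    by_cases hih : i ≤ h
    · have h3 := heval ⟨i - 1, by omega⟩ x
      rw [hx] at h3
      simpa [Nat.sub_add_cancel hi0] using h3.symm
    · have h3 := heval ⟨p - i - 1, by
        have hodd : p % 2 = 1 := Nat.odd_iff.mp (hp.odd_of_ne_two hp2)
        show p - i - 1 < (p - 1) / 2
        have hih' : ¬ i ≤ (p - 1) / 2 := hih
        omega⟩ x
      rw [hx] at h3
      simp only [show p - i - 1 + 1 = p - i by omega] at h3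
      rw [← hinvn (p - i), ← Module.End.mul_apply, ← pow_add, Nat.sub_add_cancel hi.le, hS, hsymm]
      exact h3.symm
  intro i
  rw [pow_eq_pow_mod i hS]
  exact hsmall _ (Nat.mod_lt _ hp.pos)

/-- An operator of prime order `r` without fixed points whose powers with exponents `a` and `-1`
satisfy its minimal polynomial has at least `2p` eigenvalues, where `a` has odd prime order `p`
modulo `r`. -/
theorem two_mul_le_finrank [Finite M] [Nontrivial M] {p r : ℕ} (hp : p.Prime) (hp2 : p ≠ 2)
    [Fact r.Prime] (hr2 : r ≠ 2) (T : Module.End (ZMod 2) M) (hT : T ^ r = 1)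
    (hfix : ∀ v, T v = v → v = 0) (a : ℕ) (ha : orderOf (a : ZMod r) = p)
    (hconj : ∀ P : (ZMod 2)[X], aeval T P = 0 → aeval (T ^ a) P = 0)
    (hneg : ∀ P : (ZMod 2)[X], aeval T P = 0 → aeval (T ^ (r - 1)) P = 0) :
    2 * p ≤ Module.finrank (ZMod 2) M := by
  classical
  have hr : r.Prime := Fact.out
  set P := minpoly (ZMod 2) T with hPdef
  have hint : IsIntegral (ZMod 2) T := ⟨X ^ r - C 1, monic_X_pow_sub_C 1 hr.ne_zero, by
    simp [hT]⟩
  have hPne : P ≠ 0 := minpoly.ne_zero hint
  have hdeg : P.natDegree ≤ Module.finrank (ZMod 2) M := by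
    rw [← LinearMap.charpoly_natDegree T]
    exact Polynomial.natDegree_le_of_dvd (LinearMap.minpoly_dvd_charpoly T)
      (LinearMap.charpoly_monic T).ne_zero
  let K := AlgebraicClosure (ZMod 2)
  obtain ⟨ζ, hζ⟩ := IsAlgClosed.exists_aeval_eq_zero K P (minpoly.degree_pos hint).ne'
  have hPr : P ∣ X ^ r - 1 := minpoly.dvd _ _ (by simp [hT])
  have hζr : ζ ^ r = 1 := by
    obtain ⟨Q, hQ⟩ := hPr
    have h1 := congrArg (aeval ζ) hQ
    rw [map_mul, hζ, zero_mul, map_sub, map_pow, aeval_X, map_one, sub_eq_zero] at h1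
    exact h1
  have hζ1 : ζ ≠ 1 := by
    intro h1
    rw [h1, ← map_one (algebraMap (ZMod 2) K), aeval_algebraMap_apply,
      map_eq_zero_iff _ (algebraMap (ZMod 2) K).injective, coe_aeval_eq_eval] at hζ
    obtain ⟨Q, hQ⟩ := dvd_iff_isRoot.mpr (show P.IsRoot 1 from hζ)
    have hQne : Q ≠ 0 := fun h => hPne (by rw [hQ, h, mul_zero])
    have h2 : aeval T Q = 0 := by
      refine LinearMap.ext fun v => hfix _ ?_
      have h3 := LinearMap.congr_fun ((congrArg (aeval T) hQ).symm.trans (minpoly.aeval (ZMod 2) T)) v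
      rw [map_mul, map_sub, aeval_X, map_one, map_one] at h3
      change T (aeval T Q v) - aeval T Q v = 0 at h3
      exact sub_eq_zero.mp h3
    have h4 := Polynomial.natDegree_le_of_dvd (minpoly.dvd (ZMod 2) T h2) hQne
    rw [← hPdef, hQ, natDegree_mul (X_sub_C_ne_zero 1) hQne, natDegree_X_sub_C] at h4
    omega
  have hord : orderOf ζ = r := orderOf_eq_prime hζr hζ1
  have hroot : ∀ n : ℕ, (∀ Q : (ZMod 2)[X], aeval T Q = 0 → aeval (T ^ n) Q = 0) →
      ∀ z : K, aeval z P = 0 → aeval (z ^ n) P = 0 := by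
    intro n hn z hz
    have h1 : P ∣ P.comp (X ^ n) := minpoly.dvd _ _ (by
      rw [aeval_comp, map_pow, aeval_X]; exact hn P (minpoly.aeval _ _))
    obtain ⟨Q, hQ⟩ := h1
    have h2 := congrArg (aeval z) hQ
    rw [aeval_comp, map_pow, aeval_X, map_mul, hz, zero_mul] at h2
    exact h2
  have hA : ∀ i : ℕ, aeval (ζ ^ a ^ i) P = 0 := by
    intro i
    induction i with
    | zero => simpa using hζ
    | succ i ih => rw [pow_succ a i, pow_mul]; exact hroot a hconj _ ih
  let ex : Fin p × Bool → ℕ := fun ib => a ^ (ib.1 : ℕ) * (if ib.2 then r - 1 else 1)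
  have hex : ∀ ib, aeval (ζ ^ ex ib) P = 0 := by
    rintro ⟨i, b⟩
    cases b
    · simpa [ex] using hA i
    · simp only [ex, if_true, pow_mul]; exact hroot _ hneg _ (hA i)
  have hr1 : ((r - 1 : ℕ) : ZMod r) = -1 := by
    rw [Nat.cast_sub hr.one_le, ZMod.natCast_self, zero_sub, Nat.cast_one]
  have hinj : Function.Injective fun ib : Fin p × Bool => ζ ^ ex ib := by
    intro x y hxy
    have h1 : (ex x : ZMod r) = ex y := by
      rw [ZMod.natCast_eq_natCast_iff]
      have h2 := (orderOf_pos_iff.mp (hord ▸ hr.pos) : IsOfFinOrder ζ).pow_eq_pow_iff_modEq.mp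
        (hxy : ζ ^ ex x = ζ ^ ex y)
      rw [hord] at h2
      exact h2
    obtain ⟨i, b⟩ := x
    obtain ⟨j, c⟩ := y
    have hsq : ((a : ZMod r) ^ (i : ℕ)) ^ 2 = ((a : ZMod r) ^ (j : ℕ)) ^ 2 := by
      simp only [ex] at h1
      cases b <;> cases c <;> simp [hr1] at h1 <;> first | simp [h1] | simp [← h1] | rfl
    rw [← pow_mul, ← pow_mul] at hsq
    have hfin : IsOfFinOrder (a : ZMod r) := orderOf_pos_iff.mp (ha ▸ hp.pos)
    have h2 : (i : ℕ) * 2 ≡ (j : ℕ) * 2 [MOD p] := by
      have h5 := hfin.pow_eq_pow_iff_modEq.mp hsq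
      rwa [ha] at h5
    have h3 : (i : ℕ) ≡ j [MOD p] := Nat.ModEq.cancel_right_of_coprime
      (by rw [Nat.gcd_comm]; exact (Nat.coprime_primes Nat.prime_two hp).mpr (Ne.symm hp2)) h2
    have hij : i = j := Fin.ext (Nat.ModEq.eq_of_lt_of_lt h3 i.2 j.2)
    subst hij
    have hne : (a : ZMod r) ^ (i : ℕ) ≠ -(a : ZMod r) ^ (i : ℕ) := by
      intro h4
      have h5 : (2 : ZMod r) * (a : ZMod r) ^ (i : ℕ) = 0 := by linear_combination h4
      rcases mul_eq_zero.mp h5 with h6 | h6
      · exact hr2 ((Nat.prime_dvd_prime_iff_eq hr Nat.prime_two).mp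
          ((ZMod.natCast_eq_zero_iff 2 r).mp (by exact_mod_cast h6)))
      · exact pow_ne_zero _ (fun h7 => by
          rw [h7, orderOf_zero] at ha; exact hp.ne_zero ha.symm) h6
    simp only [ex] at h1
    cases b <;> cases c
    · rfl
    · simp [hr1] at h1; exact absurd h1 hne
    · simp [hr1] at h1; exact absurd h1.symm hne
    · rfl
  have hsub : Finset.image (fun ib : Fin p × Bool => ζ ^ ex ib) Finset.univ ⊆
      (P.map (algebraMap (ZMod 2) K)).roots.toFinset := by
    intro z hz
    obtain ⟨ib, -, rfl⟩ := Finset.mem_image.mp hz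
    rw [Multiset.mem_toFinset, mem_roots (map_ne_zero hPne), IsRoot, eval_map_algebraMap]
    exact hex ib
  have h6 := (Finset.card_le_card hsub).trans
    ((Multiset.toFinset_card_le _).trans ((card_roots' _).trans (natDegree_map_le.trans hdeg)))
  rw [Finset.card_image_of_injective _ hinj, Finset.card_univ, Fintype.card_prod, Fintype.card_fin,
    Fintype.card_bool] at h6
  omega

section group

variable [Finite Γ] {U : Type*} [CommGroup U] [Finite U] [MulDistribMulAction Γ U]

theorem four_le_card_of_smul_ne {E : Subgroup U} {a b : U} (hU : ∀ u : U, u * u = 1)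
    (ha : a ∈ E) (hb : b ∈ E) (ha1 : a ≠ 1) (hb1 : b ≠ 1) (hab : a ≠ b) : 4 ≤ Nat.card E := by
  have : Fact (Nat.Prime 2) := ⟨Nat.prime_two⟩
  obtain ⟨k, hk⟩ := IsPGroup.iff_card.mp (show IsPGroup 2 E from
    fun x => ⟨1, Subtype.ext (by simpa [pow_two] using hU x)⟩)
  have h3 : 3 ≤ Nat.card E := by
    classical
    have := Fintype.ofFinite E
    rw [Nat.card_eq_fintype_card]
    refine le_trans (le_of_eq ?_)
      (Finset.card_le_univ ({1, ⟨a, ha⟩, ⟨b, hb⟩} : Finset E))
    rw [Finset.card_insert_of_notMem, Finset.card_pair]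
    · simpa [Subtype.ext_iff] using hab
    · simp [Subtype.ext_iff, Ne.symm ha1, Ne.symm hb1]
  rw [hk] at h3 ⊢
  match k, h3 with
  | 0, h => omega
  | 1, h => omega
  | n + 2, _ => exact le_trans (by norm_num) (Nat.pow_le_pow_right (by norm_num) (Nat.le_add_left 2 n))

theorem card_add_sup_eq_of_relIndex_prime {E K K' : Subgroup Γ} {r : ℕ} (hr : r.Prime)
    (hK : K.relIndex E = r) (h1 : K ≤ K') (h2 : K' ≤ E) (h3 : ¬ K' ≤ K) : K' = E := by
  have h4 := relIndex_mul_relIndex K K' E h1 h2
  rw [hK] at h4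
  rcases (Nat.dvd_prime hr).mp (Dvd.intro _ h4) with h | h
  · exact absurd (relIndex_eq_one.mp h) h3
  · refine le_antisymm h2 (relIndex_eq_one.mp ?_)
    rw [h] at h4
    exact (mul_eq_left₀ hr.ne_zero).mp h4

variable {p r : ℕ} {E : Subgroup Γ} {s : Γ}

/-- An elementary abelian group normalised by a fixed-point-free element which is irreducible on it
either is cyclic or forces a large module. -/
theorem cyclic_or_card_le (hp : p.Prime) (hr : r.Prime) (hr2 : r ≠ 2) (hU : ∀ u : U, u * u = 1)
    (hexp : ∀ e ∈ E, e ^ r = 1) (hEc : ∀ a ∈ E, ∀ b ∈ E, a * b = b * a)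
    (hne : ∃ e ∈ E, ∃ v : U, e • v ≠ v) (hs : s ^ p = 1) (hsE : s ∈ normalizer (E : Set Γ))
    (hmin : ∀ E0 ≤ E, s ∈ normalizer (E0 : Set Γ) → E0 ≠ ⊥ →
      ∀ u : U, (∀ x ∈ E0, x • u = u) → u = 1) :
    Nat.card E = r ∨ 2 ^ (2 * p) ≤ Nat.card U := by
  classical
  have : Fact (Nat.Prime 2) := ⟨Nat.prime_two⟩
  have : Fact r.Prime := ⟨hr⟩
  obtain ⟨nU, hnU⟩ := IsPGroup.iff_card.mp (show IsPGroup 2 U from
    fun u => ⟨1, by rw [pow_one, pow_two, hU]⟩)
  obtain ⟨nE, hnE⟩ := IsPGroup.iff_card.mp (show IsPGroup r E from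
    fun x => ⟨1, Subtype.ext (by simpa using hexp x x.2)⟩)
  have hcop : (Nat.card E).Coprime (Nat.card U) := by
    rw [hnU, hnE]
    exact Nat.Coprime.pow _ _ ((Nat.coprime_primes hr Nat.prime_two).mpr hr2)
  have hnorm : ∀ g ∈ E, ∀ K ≤ E, g ∈ normalizer (K : Set Γ) := fun g hg K hKE => by
    refine mem_normalizer_of_conj_smul_eq (eq_of_le_of_card_ge ?_ (card_conj_smul g K).ge)
    intro x hx
    rw [mem_conj_smul] at hx
    have hxE : x ∈ E := by
      have := E.mul_mem (E.mul_mem hg (hKE hx)) (E.inv_mem hg)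
      simpa [mul_assoc] using this
    rwa [hEc _ (E.inv_mem hg) _ hxE, inv_mul_cancel_right] at hx
  obtain ⟨K, hKE, hK, w, hw, hw1⟩ := exists_piece_ne_bot E hr hexp hEc hcop hne
  have hEfix : ∀ u : U, orbProd E u = 1 → (∀ g ∈ E, g • u = u) → u = 1 := fun u h1 h2 =>
    pow_injective_of_coprime hcop (by rw [← orbProd_of_fixed E h2, h1])
  by_cases hKs : s ∈ normalizer (K : Set Γ)
  · left
    have hKbot : K = ⊥ := by
      by_contra hne'
      exact hw1 (hmin K hKE hKs hne' w hw.1)
    subst hKbot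
    rwa [relIndex_bot_left] at hK
  right
  let g : Fin p → Γ := fun i => s ^ (i : ℕ)
  have hgE : ∀ i, g i ∈ normalizer (E : Set Γ) := fun i => pow_mem hsE _
  let Ki : Fin p → Subgroup Γ := fun i => K.map (MulAut.conj (g i)).toMonoidHom
  have hKiE : ∀ i, Ki i ≤ E := fun i => by
    rintro _ ⟨k, hk, rfl⟩
    exact (mem_normalizer_iff.mp (hgE i) k).mp (hKE hk)
  have hKidx : ∀ i, (Ki i).relIndex E = r := fun i => by
    have hEE : E.map (MulAut.conj (g i)).toMonoidHom = E := conj_smul_eq_self (hgE i)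
    conv_lhs => rw [← hEE]
    rw [← hK]
    exact relIndex_map_map_of_injective K E (MulAut.conj (g i)).injective
  have hKinj : ∀ i j : Fin p, (i : ℕ) < j → Ki i ≠ Ki j := by
    intro i j hij h
    refine hKs ?_
    let n := (j : ℕ) - i
    have hn : s ^ n ∈ normalizer (K : Set Γ) := by
      refine mem_normalizer_of_conj_smul_eq ?_
      have h1 := congrArg (fun L => MulAut.conj (g i)⁻¹ • L) h
      change MulAut.conj (g i)⁻¹ • MulAut.conj (g i) • K =
        MulAut.conj (g i)⁻¹ • MulAut.conj (g j) • K at h1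
      rw [conj_inv_smul_smul, ← conj_smul_mul] at h1
      convert h1.symm using 3
      simp only [g, n]
      rw [eq_inv_mul_iff_mul_eq, ← pow_add]
      congr 1; omega
    obtain ⟨m, -, hm1⟩ := Nat.exists_mul_mod_eq_one_of_coprime
      ((Nat.coprime_of_lt_prime (show n ≠ 0 by omega) (show n < p by omega) hp).symm) hp.one_lt
    have hnm : (s ^ n) ^ m = s := by rw [← pow_mul, pow_eq_pow_mod (n * m) hs, hm1, pow_one]
    exact hnm ▸ pow_mem hn m
  have hkill : ∀ i j : Fin p, i ≠ j → ∀ u ∈ piece (V := U) E (Ki i), orbProd (Ki j) u = 1 := by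
    intro i j hij u hu
    have hfix : ∀ k ∈ Ki i, k • orbProd (Ki j) u = orbProd (Ki j) u := fun k hk => by
      rw [← orbProd_smul_normalizer (Ki j) (hnorm k (hKiE i hk) _ (hKiE j)), hu.1 k hk]
    have hne' : ¬ Ki i ⊔ Ki j ≤ Ki i := fun hle => by
      have hle' : Ki j ≤ Ki i := le_sup_right.trans hle
      have heq : Ki j = Ki i := eq_of_le_of_card_ge hle' (le_of_eq
        ((card_conj_smul (g i) K).trans (card_conj_smul (g j) K).symm))
      rcases Nat.lt_or_gt_of_ne (fun h => hij (Fin.ext h) : (i : ℕ) ≠ j) with h | h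
      · exact hKinj i j h heq.symm
      · exact hKinj j i h heq
    have htop := card_add_sup_eq_of_relIndex_prime hr (hKidx i) le_sup_left
      (sup_le (hKiE i) (hKiE j)) hne'
    refine hEfix _ ?_ ?_
    · have := Fintype.ofFinite (Ki j)
      rw [orbProd_eq (Ki j)]
      have hprod : ∀ F : Finset (Ki j), orbProd E (∏ k ∈ F, (k : Γ) • u) = 1 := by
        intro F
        induction F using Finset.induction_on with
        | empty => rw [Finset.prod_empty, orbProd_of_fixed E fun e _ => smul_one e, one_pow]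
        | insert a F ha ih =>
          rw [Finset.prod_insert ha, orbProd_mul, ih, mul_one, orbProd_smul_mem E (hKiE j a.2), hu.2]
      exact hprod _
    · intro e he
      have hle : Ki i ⊔ Ki j ≤ MulAction.stabilizer Γ (orbProd (Ki j) u) :=
        sup_le (fun k hk => hfix k hk) (fun k hk => smul_orbProd (Ki j) hk u)
      exact hle (htop.symm ▸ he)
  have hmove : ∀ z ∈ E, z ∉ K → z • w ≠ w := fun z hz hzK h => hw1 (hEfix w hw.2 fun e he => by
    have htop : K ⊔ zpowers z = E := card_add_sup_eq_of_relIndex_prime hr hK le_sup_left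
      (sup_le hKE (zpowers_le.mpr hz)) fun hle => hzK (hle (mem_sup_right (mem_zpowers z)))
    have hle : K ⊔ zpowers z ≤ MulAction.stabilizer Γ w :=
      sup_le (fun k hk => hw.1 k hk) (zpowers_le.mpr h)
    exact hle (htop.symm ▸ he))
  obtain ⟨z, hz, hzK⟩ : ∃ z ∈ E, z ∉ K := by
    by_contra! h
    rw [relIndex_eq_one.mpr h] at hK
    exact hr.ne_one hK.symm
  have hP4 : 4 ≤ Nat.card (piece (V := U) E K) :=
    four_le_card_of_smul_ne hU hw (smul_piece E K (le_normalizer hz) (hnorm z hz K hKE) hw) hw1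
      (fun h => hw1 (by rw [← inv_smul_smul z w, h, smul_one])) (Ne.symm (hmove z hz hzK))
  have hmap : ∀ (i : Fin p) (u : U), u ∈ piece (V := U) E K → g i • u ∈ piece (V := U) E (Ki i) := by
    intro i u hu
    refine ⟨?_, by rw [orbProd_smul_normalizer E (hgE i), hu.2, smul_one]⟩
    rintro _ ⟨k, hk, rfl⟩
    show (g i * k * (g i)⁻¹) • g i • u = g i • u
    rw [mul_smul, inv_smul_smul, mul_smul, hu.1 k hk]
  let F : (Fin p → piece (V := U) E K) →* U := MonoidHom.mk' (fun f => ∏ i, g i • (f i : U))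
    fun a b => by simp only [Pi.mul_apply, Subgroup.coe_mul, smul_mul', Finset.prod_mul_distrib]
  have hF : Function.Injective F := by
    refine (injective_iff_map_eq_one F).mpr fun f hf => funext fun j => Subtype.ext ?_
    have hz : ∀ S : Finset (Fin p),
        orbProd (Ki j) (∏ i ∈ S, g i • (f i : U)) =
          if j ∈ S then (g j • (f j : U)) ^ Nat.card (Ki j) else 1 := by
      intro S
      induction S using Finset.induction_on with
      | empty => rw [Finset.prod_empty, orbProd_of_fixed _ fun e _ => smul_one e, one_pow]; simp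
      | insert a S ha ih =>
        rw [Finset.prod_insert ha, orbProd_mul, ih]
        by_cases haj : a = j
        · subst haj
          rw [orbProd_of_fixed _ (hmap a _ (f a).2).1]
          simp [ha]
        · rw [hkill a j haj _ (hmap a _ (f a).2)]
          simp [Ne.symm haj]
    have h1 := hz Finset.univ
    change orbProd (Ki j) (F f) = _ at h1
    rw [hf, orbProd_of_fixed _ (fun e _ => smul_one e), one_pow, if_pos (Finset.mem_univ j)] at h1
    have h2 := pow_injective_of_coprime (hcop.coprime_dvd_left (card_dvd_of_le (hKiE j))) h1.symm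
    simpa using congrArg (fun u => (g j)⁻¹ • u) h2
  calc 2 ^ (2 * p) = 4 ^ p := by rw [pow_mul]; norm_num
    _ ≤ Nat.card (piece (V := U) E K) ^ p := Nat.pow_le_pow_left hP4 p
    _ = Nat.card (Fin p → piece (V := U) E K) := by rw [Nat.card_fun, Nat.card_eq_fintype_card (α := Fin p), Fintype.card_fin]
    _ ≤ Nat.card U := Nat.card_le_card_of_injective F hF

/-- The group of the corner cannot exist. -/
theorem false_of_corner_module (hp : p.Prime) (hp2 : p ≠ 2) (hr : r.Prime) (hr2 : r ≠ 2)
    (hU : ∀ u : U, u * u = 1) (hexp : ∀ e ∈ E, e ^ r = 1) (hEc : ∀ a ∈ E, ∀ b ∈ E, a * b = b * a)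
    (hne : ∃ e ∈ E, ∃ v : U, e • v ≠ v) (hs : s ^ p = 1) (hsE : s ∈ normalizer (E : Set Γ))
    (hsfix : ∀ x ∈ E, s * x = x * s → x = 1)
    (hmin : ∀ E0 ≤ E, s ∈ normalizer (E0 : Set Γ) → E0 ≠ ⊥ →
      ∀ u : U, (∀ x ∈ E0, x • u = u) → u = 1)
    (β : U → U → ZMod 2) (hadd : ∀ a b c, β (a * b) c = β a c + β b c)
    (hadd' : ∀ a b c, β a (b * c) = β a b + β a c) (halt : ∀ a, β a a = 0)
    (hnd : ∀ a, (∀ b, β a b = 0) → a = 1) (hinvE : ∀ g ∈ E, ∀ a b, β (g • a) (g • b) = β a b)
    (hinvs : ∀ a b, β (s • a) (s • b) = β a b)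
    (hiso : ∀ u, (∀ i : ℕ, β u (s ^ i • u) = 0) → s • u = u) : False := by
  classical
  have : Fact r.Prime := ⟨hr⟩
  obtain ⟨x, hx, v, hxv⟩ := hne
  have hx1 : x ≠ 1 := fun h => hxv (by rw [h, one_smul])
  have : Nontrivial U := ⟨⟨_, _, hxv⟩⟩
  -- linearise
  let _ : Module (ZMod 2) (Additive U) := AddCommGroup.zmodModule fun m => by
    apply Additive.toMul.injective
    rw [two_nsmul]
    exact hU (Additive.toMul m)
  let L : Γ →* Module.End (ZMod 2) (Additive U) :=
    { toFun := fun g => ((MulDistribMulAction.toMonoidHom U g).toAdditive).toZModLinearMap 2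
      map_one' := LinearMap.ext fun m => Additive.toMul.injective (one_smul Γ (Additive.toMul m))
      map_mul' := fun a b => LinearMap.ext fun m =>
        Additive.toMul.injective (mul_smul a b (Additive.toMul m)) }
  have hL : ∀ g m, Additive.toMul (L g m) = g • Additive.toMul m := fun g m => rfl
  let B : Additive U →ₗ[ZMod 2] Additive U →ₗ[ZMod 2] ZMod 2 :=
    (AddMonoidHom.mk' (fun a => (AddMonoidHom.mk' (fun b => β (Additive.toMul a) (Additive.toMul b))
      fun b c => hadd' _ _ _).toZModLinearMap 2) fun a b => LinearMap.ext fun c => hadd _ _ _).toZModLinearMap 2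
  have hBL : ∀ g, (∀ a b, β (g • a) (g • b) = β a b) → ∀ a b, B (L g a) (L g b) = B a b :=
    fun g hg a b => hg _ _
  -- the fixed points of `s`
  let C : Submodule (ZMod 2) (Additive U) := LinearMap.ker (L s - 1)
  have hC : ∀ m, m ∈ C ↔ L s m = m := fun m => by
    rw [LinearMap.mem_ker, LinearMap.sub_apply, sub_eq_zero]; rfl
  obtain ⟨Lc, hLc⟩ := Submodule.exists_isCompl C
  have hsmall := finrank_lt_of_isotropic hp hp2 B (fun a => halt _) (L s)
    (by rw [← map_pow, hs, map_one]) (hBL s hinvs) (fun u hu => by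
      apply Additive.toMul.injective
      rw [hL]
      exact hiso _ fun i => by
        have h := hu i
        rw [← map_pow] at h
        exact h) Lc
    (fun u hu hfix => (Submodule.disjoint_def.mp hLc.disjoint) u ((hC u).mpr hfix) hu)
  -- the conjugate of the fixed points meets them trivially
  let Φ : C × C →ₗ[ZMod 2] Additive U := C.subtype.coprod ((L x).comp C.subtype)
  have hΦ : Function.Injective Φ := by
    rw [← LinearMap.ker_eq_bot, LinearMap.ker_eq_bot']
    rintro ⟨a, b⟩ hab
    have h1 : Additive.toMul (a : Additive U) * x • Additive.toMul (b : Additive U) = 1 :=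
      congrArg Additive.toMul hab
    set e := Additive.toMul (b : Additive U) with he
    have hse : s • e = e := congrArg Additive.toMul ((hC b).mp b.2)
    have hxe : s • x • e = x • e := by
      have hsa : s • Additive.toMul (a : Additive U) = Additive.toMul (a : Additive U) :=
        congrArg Additive.toMul ((hC a).mp a.2)
      rw [← eq_inv_of_mul_eq_one_right h1 |>.symm, smul_inv', hsa]
    let E0 : Subgroup Γ := E ⊓ MulAction.stabilizer Γ e
    have hs0 : s ∈ normalizer (E0 : Set Γ) := by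
      refine inf_normalizer_le_normalizer_inf ⟨hsE, ?_⟩
      refine mem_normalizer_of_conj_smul_eq (eq_of_le_of_card_ge ?_ (card_conj_smul s _).ge)
      intro y hy
      rw [mem_conj_smul] at hy
      have h3 : (s⁻¹ * y * s) • e = e := hy
      rw [mul_smul, mul_smul, hse, inv_smul_eq_iff, hse] at h3
      exact h3
    have hy : x⁻¹ * (s * x * s⁻¹) ∈ E0 := ⟨E.mul_mem (E.inv_mem hx) ((mem_normalizer_iff.mp hsE x).mp hx), by
      show (x⁻¹ * (s * x * s⁻¹)) • e = e
      rw [mul_smul, mul_smul, mul_smul, inv_smul_eq_iff.mpr hse.symm, hxe, inv_smul_smul]⟩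
    have hy1 : E0 ≠ ⊥ := fun h => hx1 (hsfix x hx (by
      have h3 := mem_bot.mp (h ▸ hy : x⁻¹ * (s * x * s⁻¹) ∈ (⊥ : Subgroup Γ))
      rw [inv_mul_eq_one, eq_mul_inv_iff_mul_eq] at h3
      exact h3.symm))
    have he1 : e = 1 := hmin E0 inf_le_left hs0 hy1 e fun y hy => hy.2
    rw [he1, smul_one, mul_one] at h1
    refine Prod.ext (Subtype.ext (Additive.toMul.injective ?_)) (Subtype.ext (Additive.toMul.injective ?_))
    · exact h1
    · exact he1
  have hn := LinearMap.finrank_le_finrank_of_injective hΦ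
  rw [Module.finrank_prod] at hn
  have hsum := Submodule.finrank_add_eq_of_isCompl hLc
  suffices hbig : 2 * p ≤ Module.finrank (ZMod 2) (Additive U) by omega
  rcases cyclic_or_card_le hp hr hr2 hU hexp hEc ⟨x, hx, v, hxv⟩ hs hsE hmin with hcyc | hlarge
  swap
  · have h1 : Nat.card U = 2 ^ Module.finrank (ZMod 2) (Additive U) := by
      rw [← Nat.card_congr (Additive.ofMul (α := U)).symm,
        Module.natCard_eq_pow_finrank (K := ZMod 2), Nat.card_zmod]
    exact (Nat.pow_le_pow_iff_right (by norm_num)).mp (h1 ▸ hlarge)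
  have hord : orderOf x = r := orderOf_eq_prime (hexp x hx) hx1
  have hEx : zpowers x = E := eq_of_le_of_card_ge (zpowers_le.mpr hx)
    (by rw [Nat.card_zpowers, hord, hcyc])
  have hsx : s * x * s⁻¹ ∈ zpowers x := hEx.symm ▸ (mem_normalizer_iff.mp hsE x).mp hx
  rw [← mem_powers_iff_mem_zpowers] at hsx
  obtain ⟨a, ha⟩ := hsx
  simp only at ha
  have hpow : ∀ i : ℕ, s ^ i * x * (s ^ i)⁻¹ = x ^ a ^ i := by
    intro i
    induction i with
    | zero => simp
    | succ i ih =>
      rw [show s ^ (i + 1) * x * (s ^ (i + 1))⁻¹ = s * (s ^ i * x * (s ^ i)⁻¹) * s⁻¹ by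
        rw [pow_succ']; group, ih, pow_succ' a, pow_mul, ← conj_pow, ← ha]
  have hcast : ∀ n : ℕ, x ^ n = x → (n : ZMod r) = 1 := fun n hn' => by
    rw [← Nat.cast_one, ZMod.natCast_eq_natCast_iff, ← hord]
    exact pow_eq_pow_iff_modEq.mp (by rw [hn', pow_one])
  have hao : orderOf (a : ZMod r) = p := by
    have : Fact p.Prime := ⟨hp⟩
    refine orderOf_eq_prime ?_ ?_
    · rw [← Nat.cast_pow]
      refine hcast _ ?_
      rw [← hpow p, hs]; simp
    · intro h1
      refine hx1 (hsfix x hx ?_)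
      rw [← Nat.cast_one, ZMod.natCast_eq_natCast_iff, ← hord, ← pow_eq_pow_iff_modEq, pow_one, ha] at h1
      exact mul_inv_eq_iff_eq_mul.mp h1
  have hfix : ∀ m, L x m = m → m = 0 := fun m hm => Additive.toMul.injective
    (hmin E le_rfl hsE (fun h => hx1 (by rw [h, mem_bot] at hx; exact hx)) _ fun y hy => by
      rw [← hEx] at hy
      exact (zpowers_le.mpr (show x ∈ MulAction.stabilizer Γ (Additive.toMul m) from
        congrArg Additive.toMul hm)) hy)
  refine two_mul_le_finrank hp hp2 hr2 (L x) (by rw [← map_pow, hexp x hx, map_one]) hfix a hao ?_ ?_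
  · intro P hP
    have key : ∀ P : (ZMod 2)[X], aeval (L x ^ a) P = L s * aeval (L x) P * L s⁻¹ := by
      intro P
      induction P using Polynomial.induction_on' with
      | add f g hf hg => rw [map_add, map_add, hf, hg, mul_add, add_mul]
      | monomial n c =>
        rw [aeval_monomial, aeval_monomial, ← mul_assoc, ← Algebra.commutes c (L s), mul_assoc,
          mul_assoc, ← map_pow, ← map_pow, ← map_pow, ← map_mul, ← map_mul]
        congr 2
        rw [ha, conj_pow, mul_assoc]
    rw [key, hP, mul_zero, zero_mul]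
  · intro P hP
    have key : ∀ (P : (ZMod 2)[X]) (u w : Additive U),
        B (aeval (L x ^ (r - 1)) P u) w = B u (aeval (L x) P w) := by
      intro P
      induction P using Polynomial.induction_on' with
      | add f g hf hg =>
        intro u w
        simp only [map_add, LinearMap.add_apply, hf, hg]
      | monomial n c =>
        intro u w
        simp only [aeval_monomial, Module.End.mul_apply, Module.algebraMap_end_apply, map_smul,
          LinearMap.smul_apply, ← map_pow]
        congr 1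
        rw [← hBL ((x ^ (r - 1)) ^ n) (hinvE _ (pow_mem (pow_mem hx _) _)) u]
        congr 1
        apply Additive.toMul.injective
        rw [hL, hL, smul_smul, ← pow_mul, ← pow_add]
        have h1 : ((r - 1) * n + n) % r = 0 := by
          rw [show (r - 1) * n + n = r * n by
            rw [← Nat.succ_mul, Nat.succ_eq_add_one, Nat.sub_add_cancel hr.one_le]]
          exact Nat.mul_mod_right r n
        rw [pow_eq_pow_mod ((r - 1) * n + n) (hexp x hx), h1, pow_zero, one_smul]
    refine LinearMap.ext fun u => ?_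
    apply Additive.toMul.injective
    refine hnd _ fun b => ?_
    have h2 := key P u (Additive.ofMul b)
    rw [hP, LinearMap.zero_apply, map_zero] at h2
    exact h2

end group

end Cfsg.Agent.Lib.FitHeight
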