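import Cfsg.Agent.Lib.FitHeight.Operators
import Cfsg.Agent.Lib.Coprime.Abelian
import Cfsg.Agent.S0065

/-! A nilpotent group with a fixed-point-free operator of prime order whose fixed points on a module
are cyclic of prime order acts as an abelian group. -/

set_option autoImplicit false
set_option linter.style.haveILetI false

namespace Cfsg.Agent.Lib.FitHeight

open scoped Pointwise commutatorElement
open Subgroup

variable {Γ : Type*} [Group Γ] [Finite Γ] {V : Type*} [CommGroup V] [Finite V] [MulDistribMulAction Γ V]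

/-- Vectors without fixed component lie in the span of the translates of a fixed vector. -/
theorem le_closure_translates {Q : Subgroup Γ} {t : Γ} {p : ℕ} (hp : p.Prime) (ht : t ^ p = 1)
    (htQ : t ∈ normalizer (Q : Set Γ)) (hQ : ∀ y ∈ Q, t * y = y * t → y = 1)
    (hcop : (Nat.card Q).Coprime (Nat.card V)) {W : Subgroup V} (hWQ : ∀ y ∈ Q, ∀ w ∈ W, y • w ∈ W)
    (hWt : ∀ w ∈ W, t • w ∈ W) (hW : ∀ w ∈ W, orbProd Q w = 1) {u : V}
    (hu : ∀ w ∈ W, t • w = w → w ∈ zpowers u) :
    W ≤ closure {x : V | ∃ y ∈ Q, x = y • u} := by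
  classical
  intro v hv
  set U : Subgroup V := closure {x : V | ∃ y ∈ Q, x = y • u} with hU
  have := Fintype.ofFinite Q
  have hWpow : ∀ (i : ℕ), ∀ w ∈ W, t ^ i • w ∈ W := by
    intro i
    induction i with
    | zero => intro w hw; rwa [pow_zero, one_smul]
    | succ i ih => intro w hw; rw [pow_succ', mul_smul]; exact hWt _ (ih w hw)
  have hone : ∀ z : Q, (∏ i ∈ Finset.range p, ((z : Γ) * t ^ i * (z : Γ)⁻¹) • v) ∈ U := by
    intro z
    have hc : cycProd t p ((z : Γ)⁻¹ • v) ∈ W :=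
      prod_mem fun i _ => hWpow i _ (hWQ _ (inv_mem z.2) v hv)
    obtain ⟨j, hj⟩ := mem_zpowers_iff.mp (hu _ hc (smul_cycProd ht _))
    have h2 : ∏ i ∈ Finset.range p, ((z : Γ) * t ^ i * (z : Γ)⁻¹) • v =
        (z : Γ) • cycProd t p ((z : Γ)⁻¹ • v) := by
      simp only [cycProd, Finset.smul_prod', smul_smul, mul_assoc]
    rw [h2, ← hj, smul_zpow']
    exact zpow_mem (show (z : Γ) • u ∈ U from subset_closure ⟨z, z.2, rfl⟩) j
  have hsum : (∏ i ∈ Finset.range p, ∏ z : Q, ((z : Γ) * t ^ i * (z : Γ)⁻¹) • v) ∈ U := by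
    rw [Finset.prod_comm]; exact prod_mem fun z _ => hone z
  have hfix : ∀ i ∈ (Finset.range p).erase 0,
      ∏ z : Q, ((z : Γ) * t ^ i * (z : Γ)⁻¹) • v = 1 := by
    intro i hi
    have hi0 := Finset.ne_of_mem_erase hi
    have hn : t ^ i ∈ normalizer (Q : Set Γ) := pow_mem htQ i
    obtain ⟨m, -, hm1⟩ := Nat.exists_mul_mod_eq_one_of_coprime
      ((Nat.coprime_of_lt_prime hi0 (Finset.mem_range.mp (Finset.mem_of_mem_erase hi)) hp).symm) hp.one_lt
    have hbm : (t ^ i) ^ m = t := by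
      rw [← pow_mul, pow_eq_pow_mod (i * m) ht, hm1, pow_one]
    let g : Q → Q := fun z => ⟨(z : Γ) * (t ^ i * (z : Γ)⁻¹ * (t ^ i)⁻¹),
      mul_mem z.2 ((mem_normalizer_iff.mp hn _).mp (inv_mem z.2))⟩
    have hg : Function.Injective g := by
      intro a b hab
      have h : (a : Γ) * (t ^ i * (a : Γ)⁻¹ * (t ^ i)⁻¹) = (b : Γ) * (t ^ i * (b : Γ)⁻¹ * (t ^ i)⁻¹) :=
        congrArg Subtype.val hab
      have hc : Commute (t ^ i) ((b : Γ)⁻¹ * a) := by
        show t ^ i * ((b : Γ)⁻¹ * a) = (b : Γ)⁻¹ * a * t ^ i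
        calc t ^ i * ((b : Γ)⁻¹ * a)
            = (b : Γ)⁻¹ * ((b : Γ) * (t ^ i * (b : Γ)⁻¹ * (t ^ i)⁻¹)) * (t ^ i) * a := by group
          _ = (b : Γ)⁻¹ * ((a : Γ) * (t ^ i * (a : Γ)⁻¹ * (t ^ i)⁻¹)) * (t ^ i) * a := by rw [h]
          _ = _ := by group
      have h3 := hQ _ (mul_mem (inv_mem b.2) a.2) (hbm ▸ (hc.pow_left m).eq)
      exact Subtype.ext (inv_mul_eq_one.mp h3).symm
    have e : ∀ z : Q, ((z : Γ) * t ^ i * (z : Γ)⁻¹) • v = (g z : Γ) • (t ^ i • v) := fun z => by
      rw [smul_smul]; congr 1; simp only [g]; group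
    rw [Finset.prod_congr rfl fun z _ => e z,
      Function.Bijective.prod_comp (Finite.injective_iff_bijective.mp hg) fun z : Q => (z : Γ) • (t ^ i • v),
      ← orbProd_eq]
    exact hW _ (hWpow i v hv)
  rw [← Finset.mul_prod_erase _ _ (Finset.mem_range.mpr hp.pos), Finset.prod_eq_one hfix, mul_one] at hsum
  simp only [pow_zero, mul_one, mul_inv_cancel, one_smul, Finset.prod_const, Finset.card_univ] at hsum
  rw [← Nat.card_eq_fintype_card] at hsum
  obtain ⟨m, hm⟩ := exists_pow_eq_self_of_coprime (x := v) (n := Nat.card Q)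
    (hcop.coprime_dvd_right (orderOf_dvd_natCard v))
  rw [← hm]
  exact pow_mem hsum m

/-- If the fixed points of `t` lie in a cyclic group of prime order, a nilpotent group on which `t`
has no fixed points acts as an abelian group. -/
theorem smul_commutator_eq_self_of_fpf {K : Subgroup Γ} [Group.IsNilpotent K] {t : Γ} {p : ℕ}
    (hp : p.Prime) (ht : t ^ p = 1) (htK : t ∈ normalizer (K : Set Γ))
    (hK : ∀ y ∈ K, t * y = y * t → y = 1) (hcop : (Nat.card K).Coprime (Nat.card V))
    (hone : ∀ w : V, t • w = w → w ≠ 1 → ∀ v : V, t • v = v → v ∈ zpowers w) :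
    ∀ g ∈ ⁅K, K⁆, ∀ v : V, g • v = v := by
  classical
  let ρ : Γ →* MulAut V := MulDistribMulAction.toMulAut Γ V
  haveI : Finite (MulAut V) := Finite.of_injective (fun σ : MulAut V => (σ : V → V)) DFunLike.coe_injective
  have hker : ∀ g : Γ, ρ g = 1 ↔ ∀ v : V, g • v = v := fun g =>
    ⟨fun h v => DFunLike.congr_fun h v, fun h => MulEquiv.ext h⟩
  let φ : K →* K.map ρ := ρ.subgroupMap K
  haveI : Group.IsNilpotent (K.map ρ) :=
    Group.nilpotent_of_surjective φ (ρ.subgroupMap_surjective K)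
  by_contra hne
  have hne' : commutator (K.map ρ) ≠ ⊥ := by
    intro h
    apply hne
    intro g hg
    rw [← hker, ← mem_bot, ← show (commutator (K.map ρ)).map (K.map ρ).subtype = ⊥ by
      rw [h, Subgroup.map_bot], map_subtype_commutator, ← map_commutator]
    exact mem_map_of_mem ρ hg
  obtain ⟨c, hc, hc1⟩ := (Subgroup.bot_or_exists_ne_one _).resolve_left
    (Cfsg.Agent.S0065.inf_center_ne_bot (N := commutator (K.map ρ)) inferInstance hne')
  -- the preimage in the derived subgroup of the centre of the image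
  let Z : Subgroup Γ := ⁅K, K⁆ ⊓
    (centralizer ((K.map ρ : Subgroup (MulAut V)) : Set (MulAut V))).comap ρ
  have hZK : Z ≤ K := inf_le_left.trans (commutator_le_self K)
  have hKK : ∀ g ∈ normalizer (K : Set Γ), g ∈ normalizer (Z : Set Γ) := by
    intro g hg
    have hg1 : g ∈ normalizer ((⁅K, K⁆ : Subgroup Γ) : Set Γ) := by
      refine mem_normalizer_iff_map_conj_eq.mpr ?_
      rw [map_commutator, mem_normalizer_iff_map_conj_eq.mp hg]
    refine inf_normalizer_le_normalizer_inf ⟨hg1, ?_⟩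
    refine mem_normalizer_iff.mpr fun y => ?_
    have hrg : ρ g ∈ normalizer ((centralizer ((K.map ρ : Subgroup (MulAut V)) : Set (MulAut V)) :
        Subgroup (MulAut V)) : Set (MulAut V)) :=
      Cfsg.Agent.Lib.Coprime.normalizer_le_normalizer_centralizer _ (le_normalizer_map ρ (mem_map_of_mem ρ hg))
    simp only [mem_comap, map_mul, map_inv]
    exact mem_normalizer_iff.mp hrg (ρ y)
  -- the moved part
  let W : Subgroup V :=
    { carrier := {v | orbProd Z v = 1}
      one_mem' := by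
        show orbProd Z (1 : V) = 1
        rw [orbProd_of_fixed Z (fun e _ => smul_one e), one_pow]
      mul_mem' := fun {a b} ha hb => by
        show orbProd Z (a * b) = 1
        rw [orbProd_mul, show orbProd Z a = 1 from ha, show orbProd Z b = 1 from hb, mul_one]
      inv_mem' := fun {a} ha => by
        show orbProd Z a⁻¹ = 1
        rw [orbProd_inv, show orbProd Z a = 1 from ha, inv_one] }
  have hWN : ∀ g ∈ normalizer (K : Set Γ), ∀ w ∈ W, g • w ∈ W := by
    intro g hg w hw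
    show orbProd Z (g • w) = 1
    rw [orbProd_smul_normalizer Z (hKK g hg), show orbProd Z w = 1 from hw, smul_one]
  have hWK : ∀ g ∈ K, ∀ w ∈ W, g • w ∈ W := fun g hg => hWN g (le_normalizer hg)
  have hZW : ∀ z ∈ Z, ∀ v : V, z • v * v⁻¹ ∈ W := by
    intro z hz v
    show orbProd Z (z • v * v⁻¹) = 1
    rw [orbProd_mul, orbProd_inv, orbProd_smul_mem Z hz, mul_inv_cancel]
  have hcopZ : (Nat.card Z).Coprime (Nat.card V) := hcop.coprime_dvd_left (card_dvd_of_le hZK)
  have hWfix : ∀ w ∈ W, (∀ z ∈ Z, z • w = w) → w = 1 := by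
    intro w hw h
    have h1 : orbProd Z w = 1 := hw
    rw [orbProd_of_fixed Z h] at h1
    exact eq_one_of_pow_eq_one h1 (hcopZ.coprime_dvd_right (orderOf_dvd_natCard w))
  -- a fixed vector
  have hcyc : ∀ u : V, (∀ w ∈ W, t • w = w → w ∈ zpowers u) →
      W ≤ closure {x : V | ∃ y ∈ Z, x = y • u} := fun u hu =>
    le_closure_translates (Q := Z) (t := t) hp ht (hKK t htK)
      (fun y hy => hK y (hZK hy)) hcopZ (W := W) (fun y hy => hWK y (hZK hy)) (hWN t htK)
      (fun w hw => hw) hu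
  obtain ⟨u, huW, hsub⟩ : ∃ u ∈ W, W ≤ closure {x : V | ∃ y ∈ Z, x = y • u} := by
    by_cases h : ∀ w ∈ W, t • w = w → w = 1
    · exact ⟨1, one_mem W, hcyc 1 fun w hw hw' => by rw [h w hw hw']; exact one_mem _⟩
    · push Not at h
      obtain ⟨u, hu, hu', hu1⟩ := h
      exact ⟨u, hu, hcyc u fun w _ hw' => hone u hu' hu1 w hw'⟩
  -- the elements of `K` commute on the moved part
  have hcomm : ∀ a ∈ K, ∀ z ∈ Z, ∀ v : V, a • z • v = z • a • v := by
    intro a ha z hz v
    have h := mem_centralizer_iff.mp hz.2 (ρ a) (mem_map_of_mem ρ ha)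
    exact DFunLike.congr_fun h v
  have hab : ∀ a ∈ K, ∀ b ∈ K, ∀ w ∈ W, a • b • w = b • a • w := by
    intro a ha b hb
    have hex : ∀ y ∈ closure {x : V | ∃ z ∈ Z, x = z • u}, ∃ c : V →* V, c u = y ∧
        ∀ d : V →* V, (∀ z ∈ Z, ∀ v, d (z • v) = z • d v) → ∀ v, d (c v) = c (d v) := by
      intro y hy
      induction hy using closure_induction with
      | mem x hx =>
        obtain ⟨z, hz, rfl⟩ := hx
        exact ⟨act z, rfl, fun d hd v => hd z hz v⟩
      | one => exact ⟨1, rfl, fun d _ v => map_one d⟩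
      | mul x y _ _ hx hy =>
        obtain ⟨c, hc, hcd⟩ := hx
        obtain ⟨c', hc', hcd'⟩ := hy
        exact ⟨c * c', by rw [MonoidHom.mul_apply, hc, hc'], fun d hd v => by
          rw [MonoidHom.mul_apply, map_mul, hcd d hd, hcd' d hd, MonoidHom.mul_apply]⟩
      | inv x _ hx =>
        obtain ⟨c, hc, hcd⟩ := hx
        exact ⟨c⁻¹, by rw [MonoidHom.inv_apply, hc], fun d hd v => by
          rw [MonoidHom.inv_apply, map_inv, hcd d hd, MonoidHom.inv_apply]⟩
    obtain ⟨c, hcu, hcd⟩ := hex (b • u) (hsub (hWK b hb u huW))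
    have hbz : ∀ z ∈ Z, ∀ v, (act b : V →* V) (z • v) = z • act b v := fun z hz v => hcomm b hb z hz v
    have hbc : ∀ x ∈ closure {x : V | ∃ z ∈ Z, x = z • u}, b • x = c x := by
      intro x hx
      induction hx using closure_induction with
      | mem x hx =>
        obtain ⟨z, hz, rfl⟩ := hx
        rw [hcomm b hb z hz, ← hcu]
        exact hcd (act z) (fun z' hz' v => hcomm z (hZK hz) z' hz' v) u
      | one => rw [smul_one, map_one]
      | mul x y _ _ hx hy => rw [smul_mul', hx, hy, map_mul]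
      | inv x _ hx => rw [smul_inv', hx, map_inv]
    intro w hw
    rw [hbc _ (hsub (hWK a ha w hw)), hbc _ (hsub hw)]
    exact hcd (act a) (fun z hz v => hcomm a ha z hz v) w
  have htriv : ∀ g ∈ ⁅K, K⁆, ∀ w ∈ W, g • w = w := by
    let S : Subgroup Γ :=
      { carrier := {g | ∀ w ∈ W, g • w = w}
        one_mem' := fun w _ => one_smul Γ w
        mul_mem' := fun {a b} ha hb w hw => by rw [mul_smul, hb w hw, ha w hw]
        inv_mem' := fun {a} ha w hw => by rw [inv_smul_eq_iff, ha w hw] }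
    suffices h : ⁅K, K⁆ ≤ S from fun g hg => h hg
    rw [commutator_le]
    intro a ha b hb w hw
    have hwK : ∀ g ∈ K, g⁻¹ • w ∈ W := fun g hg => hWK _ (inv_mem hg) w hw
    rw [commutatorElement_def, mul_smul, mul_smul, mul_smul, hab a ha b hb _ (hWK _ (inv_mem ha) _
      (hwK b hb)), smul_inv_smul, smul_inv_smul]
  -- so `Z` is trivial
  apply hc1
  have hcZ : ∀ z ∈ Z, ρ z = 1 := by
    intro z hz
    rw [hker]
    intro v
    have h1 : z • v * v⁻¹ = 1 :=
      hWfix _ (hZW z hz v) fun y hy => htriv y hy.1 _ (hZW z hz v)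
    exact mul_inv_eq_one.mp h1
  obtain ⟨z, hz, hzc⟩ : (c : MulAut V) ∈ (⁅K, K⁆).map ρ := by
    rw [map_commutator, ← map_subtype_commutator]
    exact mem_map_of_mem (K.map ρ).subtype hc.1
  refine Subtype.ext ?_
  rw [← hzc]
  refine hcZ z ⟨hz, ?_⟩
  show ρ z ∈ centralizer _
  rw [hzc, mem_centralizer_iff]
  intro a ha
  exact congrArg Subtype.val (mem_center_iff.mp hc.2 ⟨a, ha⟩)

end Cfsg.Agent.Lib.FitHeight
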