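import Cfsg.Agent.Lib.FitHeight.Corner
import Cfsg.Agent.Lib.FitHeight.HallHigman
import Cfsg.Agent.Lib.Hall.Solvable

/-! The core for a non-abelian group of order `pq` acting coprimely without fixed points: the group
modulo its faithful module is nilpotent. -/

set_option autoImplicit false

namespace Cfsg.Agent.Lib.FitHeight

open scoped Pointwise commutatorElement IsMulCommutative
open Subgroup Cfsg.Agent.Lib.Coprime Cfsg.Agent.Lib.Hall

variable {Γ : Type*} [Group Γ]

/-- The elements of `R` whose commutators with `S` lie in `K`. -/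
def bracketKer (S : Set Γ) (R K : Subgroup Γ) : Subgroup Γ where
  carrier := {x | x ∈ R ∧ x ∈ normalizer (K : Set Γ) ∧ ∀ y ∈ S, ⁅y, x⁆ ∈ K}
  one_mem' := ⟨R.one_mem, one_mem _, fun y _ => by simp⟩
  mul_mem' := fun {x z} hx hz => ⟨R.mul_mem hx.1 hz.1, mul_mem hx.2.1 hz.2.1, fun y hy => by
    have e : ⁅y, x * z⁆ = ⁅y, x⁆ * (x * ⁅y, z⁆ * x⁻¹) := by simp only [commutatorElement_def]; group
    rw [e]
    exact K.mul_mem (hx.2.2 y hy) ((mem_normalizer_iff.mp hx.2.1 _).mp (hz.2.2 y hy))⟩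
  inv_mem' := fun {x} hx => ⟨R.inv_mem hx.1, inv_mem hx.2.1, fun y hy => by
    have e : ⁅y, x⁻¹⁆ = x⁻¹ * ⁅y, x⁆⁻¹ * x⁻¹⁻¹ := by simp only [commutatorElement_def]; group
    rw [e]
    exact (mem_normalizer_iff.mp (inv_mem hx.2.1) _).mp (K.inv_mem (hx.2.2 y hy))⟩

theorem mem_bracketKer {S : Set Γ} {R K : Subgroup Γ} {x : Γ} :
    x ∈ bracketKer S R K ↔ x ∈ R ∧ x ∈ normalizer (K : Set Γ) ∧ ∀ y ∈ S, ⁅y, x⁆ ∈ K := Iff.rfl

theorem bracketKer_le (S : Set Γ) (R K : Subgroup Γ) : bracketKer S R K ≤ R := fun _ hx => hx.1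

theorem mem_normalizer_bracketKer [Finite Γ] {Q R K : Subgroup Γ} {g : Γ}
    (hQ : g ∈ normalizer (Q : Set Γ)) (hR : g ∈ normalizer (R : Set Γ)) (hK : g ∈ normalizer (K : Set Γ)) :
    g ∈ normalizer ((bracketKer (Q : Set Γ) R K : Subgroup Γ) : Set Γ) := by
  refine mem_normalizer_of_conj_mem fun x hx => ⟨(mem_normalizer_iff.mp hR x).mp hx.1,
    mul_mem (mul_mem hK hx.2.1) (inv_mem hK), fun y hy => ?_⟩
  have hy' : g⁻¹ * y * g⁻¹⁻¹ ∈ Q := (mem_normalizer_iff.mp (inv_mem hQ) y).mp hy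
  rw [inv_inv] at hy'
  have e : ⁅y, g * x * g⁻¹⁆ = g * ⁅g⁻¹ * y * g, x⁆ * g⁻¹ := by simp only [commutatorElement_def]; group
  rw [e]
  exact (mem_normalizer_iff.mp hK _).mp (hx.2.2 _ hy')

theorem commutator_mem_swap {K : Subgroup Γ} {x y : Γ} (h : ⁅x, y⁆ ∈ K) : ⁅y, x⁆ ∈ K := by
  rw [← commutatorElement_inv]; exact K.inv_mem h

theorem commutator_mem_left {K : Subgroup Γ} {x y : Γ} (hy : y ∈ normalizer (K : Set Γ)) (hx : x ∈ K) :
    ⁅x, y⁆ ∈ K := by
  rw [commutatorElement_def, mul_assoc, mul_assoc, ← mul_assoc y]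
  exact K.mul_mem hx ((mem_normalizer_iff.mp hy _).mp (K.inv_mem hx))

section action

variable {V : Type*} [CommGroup V] [MulDistribMulAction Γ V]

/-- Operators commuting on an invariant subgroup have a commutator fixing it. -/
theorem commutator_smul_eq {W : Subgroup V} {y z : Γ} (hy : ∀ v ∈ W, y⁻¹ • v ∈ W)
    (hz : ∀ v ∈ W, z⁻¹ • v ∈ W) (h : ∀ v ∈ W, z • y • v = y • z • v) {v : V} (hv : v ∈ W) :
    ⁅y, z⁆ • v = v := by
  rw [commutatorElement_def, mul_smul, mul_smul, mul_smul, ← h _ (hy _ (hz _ hv)), smul_inv_smul,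
    smul_inv_smul]

end action

variable [Finite Γ] {V : Type*} [CommGroup V] [Finite V] [MulDistribMulAction Γ V]
  {H A : Subgroup Γ} {l : ℕ}

theorem CoreData.mem_of_commutator_mem' (D : CoreData V H A l) {N : Subgroup Γ}
    (hAN : A ≤ normalizer (N : Set Γ)) (hNH : N ≤ H) {x : Γ} (hx : x ∈ H)
    (hxN : x ∈ normalizer (N : Set Γ)) {a b : Γ} (haA : a ∈ A) (hbA : b ∈ A)
    (hA : A ≤ closure {a, b}) (ha : ⁅x, a⁆ ∈ N) (hb : ⁅x, b⁆ ∈ N) : x ∈ N := by
  have hle : A ≤ bracketKer ({x} : Set Γ) A N := hA.trans ((closure_le _).mpr (by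
    rintro g (rfl | rfl)
    · exact ⟨haA, hAN haA, fun y hy => by rw [Set.mem_singleton_iff.mp hy]; exact ha⟩
    · exact ⟨hbA, hAN hbA, fun y hy => by rw [Set.mem_singleton_iff.mp hy]; exact hb⟩))
  obtain ⟨c, hc, hcn⟩ := exists_centralizer_mem_coset (A := A) (N := N) (k := x) hAN
    (D.cop.coprime_dvd_right (card_dvd_of_le hNH)) (Or.inl D.asolv) fun g hg => by
      have e : x⁻¹ * (g * x * g⁻¹) = x⁻¹ * ⁅x, g⁆⁻¹ * x⁻¹⁻¹ := by simp only [commutatorElement_def]; group
      rw [e]
      exact (mem_normalizer_iff.mp (inv_mem hxN) _).mp (N.inv_mem ((hle hg).2.2 x rfl))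
  have hc1 : c ∈ H ⊓ centralizer (A : Set Γ) := ⟨by simpa using H.mul_mem hx (hNH hcn), hc⟩
  rw [D.fpf, mem_bot] at hc1
  rw [hc1, mul_one] at hcn
  exact inv_mem_iff.mp hcn

theorem CoreData.le_normalizer_partKer (D : CoreData V H A l) (B : Subgroup Γ) :
    H ≤ normalizer ((partKer (V := V) H B : Subgroup Γ) : Set Γ) := fun _ hh =>
  have := D.normal
  mem_normalizer_of_conj_mem fun _ hx => conj_mem_partKer_of_mem H B hh hx

theorem CoreData.eq_one_of_fixed_fpfPart (D : CoreData V H A l) {b : Γ} {n : ℕ} (hn : n.Prime)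
    (hbn : orderOf b = n) (hnA : n ∣ Nat.card A) {v : V} (hv : v ∈ fpfPart (V := V) H (zpowers b))
    (hfix : b • v = v) : v = 1 := by
  have h := orbProd_eq_one_of_mem_fpfPart H _ hv
  rw [orbProd_of_fixed _ (fun e he => (zpowers_le.mpr (show b ∈ MulAction.stabilizer Γ v from hfix)) he),
    Nat.card_zpowers, hbn] at h
  exact pow_injective_of_coprime (D.coprime_card (D.hlA.symm.coprime_dvd_left hnA)) h

/-- Hall-Higman: an element of prime order commutes with `Q` on its part outside the exception. -/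
theorem CoreData.commute_on_part (D : CoreData V H A l) {b : Γ} (hbA : b ∈ A) {n q0 : ℕ} (hn : n.Prime)
    (hbn : orderOf b = n) [Fact q0.Prime] {Q : Subgroup Γ} [Q.Normal] (hQ : IsPGroup q0 Q) (hQH : Q ≤ H)
    (hq0n : q0 ≠ n) (hlq0 : l ≠ q0) (hex : NotException n q0) :
    ∀ y ∈ Q, ∀ v ∈ fpfPart (V := V) H (zpowers b), b • y • v = y • b • v := by
  have := D.normal
  have hnA : n ∣ Nat.card A := by
    rw [← hbn, ← Nat.card_zpowers]; exact card_dvd_of_le (zpowers_le.mpr hbA)
  have hln : l ≠ n := fun e => hn.ne_one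
    (Nat.eq_one_of_dvd_coprimes D.hlA (by rw [e]) hnA)
  exact commute_of_cycProd_eq_one (Γ := Γ) (V := V) D.hl hn Fact.out hq0n hln hlq0 hex hQ
    (by rw [normalizer_eq_top]; exact mem_top b) (hbn ▸ pow_orderOf_eq_one b)
    (fpfPart H (zpowers b)) (fun v _ => D.hVl v)
    (fun y hy v hv => smul_fpfPart_of_mem H _ (hQH hy) hv)
    (fun v hv => smul_fpfPart_normalizer H _ (le_normalizer (mem_zpowers b)) hv)
    (fun v hv => by
      have h := orbProd_eq_one_of_mem_fpfPart H _ hv
      rwa [orbProd_zpowers, hbn] at h)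

/-- The shape of a non-abelian group of order `pq`. -/
structure PQData (A : Subgroup Γ) (p q : ℕ) (f t : Γ) (a : ℕ) : Prop where
  hp : p.Prime
  hq : q.Prime
  hne : p ≠ q
  hfA : f ∈ A
  htA : t ∈ A
  hf : orderOf f = q
  ht : orderOf t = p
  hcard : Nat.card A = p * q
  htf : t * f * t⁻¹ = f ^ a
  hna : t * f ≠ f * t

section PQ

variable {p q : ℕ} {f t : Γ} {a : ℕ}

theorem CoreData.le_closure_pair (D : CoreData V H A l) {x y : Γ} (hx : x ∈ A) (hy : y ∈ A)
    (hy1 : y ≠ 1) (hxy : x ∉ zpowers y) : A ≤ closure {x, y} := by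
  have hC : closure {x, y} ≤ A := (closure_le _).mpr (by rintro g (rfl | rfl) <;> assumption)
  have hyC : y ∈ closure ({x, y} : Set Γ) := Subgroup.subset_closure (Set.mem_insert_of_mem _ rfl)
  by_contra hne
  have hpr := D.hmin _ hC (fun h => hne h.ge) (fun h => hy1 (mem_bot.mp (h ▸ hyC)))
  refine hxy ?_
  have heq : zpowers y = closure {x, y} := by
    refine eq_of_le_of_card_ge (zpowers_le.mpr hyC) (le_of_eq ?_)
    refine (((Nat.dvd_prime hpr).mp (card_dvd_of_le (zpowers_le.mpr hyC))).resolve_left ?_).symm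
    rw [Nat.card_zpowers, orderOf_eq_one_iff]
    exact hy1
  rw [heq]
  exact Subgroup.subset_closure (Set.mem_insert _ _)

theorem PQData.normalizer_zpowers (P : PQData A p q f t a) (D : CoreData V H A l) :
    A ≤ normalizer ((zpowers f : Subgroup Γ) : Set Γ) := by
  have hnot : t ∉ zpowers f := fun h => by
    have h2 := orderOf_dvd_of_mem_zpowers h
    rw [P.hf, P.ht] at h2
    exact P.hne ((Nat.prime_dvd_prime_iff_eq P.hp P.hq).mp h2)
  refine (D.le_closure_pair P.htA P.hfA (fun h => P.hq.ne_one (by rw [← P.hf, h, orderOf_one])) hnot).trans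
    ((closure_le _).mpr ?_)
  rintro g (rfl | rfl)
  · refine mem_normalizer_of_conj_mem fun z hz => ?_
    obtain ⟨i, rfl⟩ := hz
    rw [← conj_zpow, P.htf]
    exact zpow_mem (pow_mem (mem_zpowers f) a) i
  · exact le_normalizer (mem_zpowers g)

theorem PQData.eq_zpowers_or_card (P : PQData A p q f t a) (D : CoreData V H A l) {B : Subgroup Γ}
    (hB : B ≤ A) (hBp : (Nat.card B).Prime) : B = zpowers f ∨ Nat.card B = p := by
  have h := card_dvd_of_le hB
  rw [P.hcard] at h
  rcases (Nat.Prime.dvd_mul hBp).mp h with h1 | h1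
  · exact Or.inr ((Nat.prime_dvd_prime_iff_eq hBp P.hp).mp h1)
  left
  have hBq : Nat.card B = q := (Nat.prime_dvd_prime_iff_eq hBp P.hq).mp h1
  by_contra hne
  have hinf : B ⊓ zpowers f = ⊥ := by
    rcases (Nat.dvd_prime P.hq).mp (hBq ▸ card_dvd_of_le (inf_le_left : B ⊓ zpowers f ≤ B)) with h2 | h2
    · exact eq_bot_of_card_eq _ h2
    · exfalso
      refine hne (eq_of_le_of_card_ge ?_ (by rw [Nat.card_zpowers, P.hf, hBq]))
      exact (eq_of_le_of_card_ge (inf_le_left : B ⊓ zpowers f ≤ B) (by rw [h2, hBq])).symm.le.trans inf_le_right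
  have h3 := card_sup_of_coprime_like (hB.trans (P.normalizer_zpowers D)) hinf
  rw [Nat.card_zpowers, P.hf, hBq] at h3
  have h4 := card_dvd_of_le (sup_le hB (zpowers_le.mpr P.hfA))
  rw [h3, P.hcard] at h4
  exact P.hne ((Nat.prime_dvd_prime_iff_eq P.hq P.hp).mp (Nat.dvd_of_mul_dvd_mul_right P.hq.pos h4)).symm

theorem exists_generator {B : Subgroup Γ} {n : ℕ} (hn : n.Prime) (hB : Nat.card B = n) :
    ∃ b, zpowers b = B ∧ orderOf b = n := by
  have : Fact n.Prime := ⟨hn⟩
  obtain ⟨g, hg⟩ := exists_prime_orderOf_dvd_card' (G := B) n hB.symm.dvd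
  refine ⟨g, eq_of_le_of_card_ge (zpowers_le.mpr g.2) ?_, by rw [Subgroup.orderOf_coe, hg]⟩
  rw [Nat.card_zpowers, Subgroup.orderOf_coe, hg, hB]

theorem PQData.not_commute (P : PQData A p q f t a) (D : CoreData V H A l) {b : Γ} (hb : b ∈ A)
    (hbp : orderOf b = p) {k : ℕ} (hk : ¬ q ∣ k) : ¬ f ^ k * b = b * f ^ k := by
  intro hc
  have hg1 : f ^ k ≠ 1 := fun h => hk (P.hf ▸ orderOf_dvd_of_pow_eq_one h)
  have hnot : b ∉ zpowers (f ^ k) := fun h => by
    have h2 := orderOf_dvd_of_mem_zpowers (zpowers_le.mpr (pow_mem (mem_zpowers f) k) h)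
    rw [P.hf, hbp] at h2
    exact P.hne ((Nat.prime_dvd_prime_iff_eq P.hp P.hq).mp h2)
  have hle := D.le_closure_pair hb (pow_mem P.hfA k) hg1 hnot
  have hcomm : IsMulCommutative (closure ({b, f ^ k} : Set Γ)) := isMulCommutative_closure (by
    rintro x (rfl | rfl) y (rfl | rfl)
    exacts [rfl, hc.symm, hc, rfl])
  exact P.hna (congrArg Subtype.val (hcomm.is_comm.comm ⟨t, hle P.htA⟩ ⟨f, hle P.hfA⟩))

theorem PQData.conj_ne (P : PQData A p q f t a) (D : CoreData V H A l) {B : Subgroup Γ} (hB : B ≤ A)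
    (hBp : Nat.card B = p) {k : ℕ} (hk : ¬ q ∣ k) : MulAut.conj (f ^ k) • B ≠ B := by
  intro h
  obtain ⟨b, rfl, hbp⟩ := exists_generator P.hp hBp
  have hbA : b ∈ A := hB (mem_zpowers b)
  have hn : f ^ k ∈ normalizer ((zpowers b : Subgroup Γ) : Set Γ) := mem_normalizer_of_conj_smul_eq h
  have h1 : ⁅f ^ k, b⁆ ∈ zpowers b :=
    mul_mem ((mem_normalizer_iff.mp hn b).mp (mem_zpowers b)) (inv_mem (mem_zpowers b))
  have h2 : ⁅f ^ k, b⁆ ∈ zpowers f := by
    rw [commutatorElement_def, mul_assoc, mul_assoc, ← mul_assoc b]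
    exact mul_mem (pow_mem (mem_zpowers f) k)
      ((mem_normalizer_iff.mp (P.normalizer_zpowers D hbA) _).mp (inv_mem (pow_mem (mem_zpowers f) k)))
  have h3 : ⁅f ^ k, b⁆ = 1 := by
    by_contra h4
    have e1 : orderOf ⁅f ^ k, b⁆ = p :=
      ((Nat.dvd_prime P.hp).mp (hbp ▸ orderOf_dvd_of_mem_zpowers h1)).resolve_left
        (by rwa [orderOf_eq_one_iff])
    have e2 := orderOf_dvd_of_mem_zpowers h2
    rw [e1, P.hf] at e2
    exact P.hne ((Nat.prime_dvd_prime_iff_eq P.hp P.hq).mp e2)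
  exact P.not_commute D hbA hbp hk (commutatorElement_eq_one_iff_mul_comm.mp h3)

theorem PQData.dvd_sub_one (P : PQData A p q f t a) : p ∣ q - 1 := by
  have : Fact q.Prime := ⟨P.hq⟩
  have : Fact p.Prime := ⟨P.hp⟩
  have hpow : ∀ i : ℕ, t ^ i * f * (t ^ i)⁻¹ = f ^ a ^ i := by
    intro i
    induction i with
    | zero => simp
    | succ i ih =>
      rw [show t ^ (i + 1) * f * (t ^ (i + 1))⁻¹ = t * (t ^ i * f * (t ^ i)⁻¹) * t⁻¹ by
        rw [pow_succ']; group, ih, pow_succ' a, pow_mul, ← conj_pow, P.htf]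
  have h1 : ((a : ZMod q)) ^ p = 1 := by
    rw [← Nat.cast_pow, ← Nat.cast_one, ZMod.natCast_eq_natCast_iff, ← P.hf, ← pow_eq_pow_iff_modEq,
      ← hpow, pow_one]
    rw [← P.ht, pow_orderOf_eq_one]; simp
  have hne1 : (a : ZMod q) ≠ 1 := fun h => by
    rw [← Nat.cast_one, ZMod.natCast_eq_natCast_iff, ← P.hf, ← pow_eq_pow_iff_modEq, pow_one, ← P.htf,
      mul_inv_eq_iff_eq_mul] at h
    exact P.hna h
  have h0 : (a : ZMod q) ≠ 0 := fun h => by
    rw [h, zero_pow P.hp.ne_zero] at h1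
    exact zero_ne_one h1
  have h2 := ZMod.orderOf_dvd_card_sub_one (p := q) h0
  rwa [orderOf_eq_prime h1 hne1] at h2

/-- The subgroups of order `p` of `A`. -/
def lineSet (A : Subgroup Γ) (p : ℕ) : Set (Subgroup Γ) := {B | B ≤ A ∧ Nat.card B = p}

theorem conj_mem_lineSet {B : Subgroup Γ} {g : Γ} (hg : g ∈ A) (hB : B ∈ lineSet A p) :
    B.map (MulAut.conj g).toMonoidHom ∈ lineSet A p :=
  ⟨by
    rintro _ ⟨x, hx, rfl⟩
    exact A.mul_mem (A.mul_mem hg (hB.1 hx)) (A.inv_mem hg),
  by rw [card_map_of_injective (MulAut.conj g).injective, hB.2]⟩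

variable (V H) in
/-- The part of `Q` in the kernels of a set of subgroups. -/
noncomputable def kerI (Q : Subgroup Γ) (S : Set (Subgroup Γ)) : Subgroup Γ :=
  Q ⊓ ⨅ B ∈ S, partKer (V := V) H B

theorem mem_kerI {Q : Subgroup Γ} {S : Set (Subgroup Γ)} {x : Γ} :
    x ∈ kerI V H Q S ↔ x ∈ Q ∧ ∀ B ∈ S, x ∈ partKer (V := V) H B := by
  simp only [kerI, mem_inf, mem_iInf]

theorem CoreData.le_normalizer_kerI (D : CoreData V H A l) {Q : Subgroup Γ} [Q.Normal]
    (S : Set (Subgroup Γ)) : H ≤ normalizer ((kerI V H Q S : Subgroup Γ) : Set Γ) := fun h hh =>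
  mem_normalizer_of_conj_mem fun x hx => by
    have := D.normal
    rw [mem_kerI] at hx ⊢
    exact ⟨(inferInstance : Q.Normal).conj_mem x hx.1 h, fun B hB => conj_mem_partKer_of_mem H B hh (hx.2 B hB)⟩

theorem CoreData.mem_normalizer_kerI (D : CoreData V H A l) {Q : Subgroup Γ} [Q.Normal]
    {S : Set (Subgroup Γ)} {g : Γ} (hS : ∀ B ∈ S, B.map (MulAut.conj g⁻¹).toMonoidHom ∈ S) :
    g ∈ normalizer ((kerI V H Q S : Subgroup Γ) : Set Γ) :=
  mem_normalizer_of_conj_mem fun x hx => by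
    have := D.normal
    rw [mem_kerI] at hx ⊢
    refine ⟨(inferInstance : Q.Normal).conj_mem x hx.1 g, fun B hB => ?_⟩
    have h := conj_mem_partKer H _ g (hx.2 _ (hS B hB))
    rwa [show (B.map (MulAut.conj g⁻¹).toMonoidHom).map (MulAut.conj g).toMonoidHom = B from
      conj_smul_inv_smul g B] at h

theorem PQData.normal_kerI (P : PQData A p q f t a) (D : CoreData V H A l) (Q : Subgroup Γ) [Q.Normal] :
    (kerI V H Q (lineSet A p)).Normal := by
  have _ := P
  rw [← normalizer_eq_top_iff, eq_top_iff, ← D.sup]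
  exact sup_le (D.le_normalizer_kerI _) fun g hg =>
    D.mem_normalizer_kerI fun B hB => conj_mem_lineSet (inv_mem hg) hB

set_option maxHeartbeats 1000000 in
/-- Any `|lines| - 1` of the kernels meet `Q` inside the last one. -/
theorem PQData.kerI_erase_le (P : PQData A p q f t a) (D : CoreData V H A l) {Q : Subgroup Γ} [Q.Normal]
    (hQH : Q ≤ H) {q0 : ℕ} [Fact q0.Prime] (hQ : IsPGroup q0 Q) (hlq0 : l ≠ q0) (hpq0 : q0 ≠ p)
    {B : Subgroup Γ} (hB : B ∈ lineSet A p) :
    kerI V H Q (lineSet A p \ {B}) ≤ partKer (V := V) H B := by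
  classical
  have := D.normal
  have : Fact q.Prime := ⟨P.hq⟩
  obtain ⟨b, rfl, hbp⟩ := exists_generator P.hp hB.2
  have hbA : b ∈ A := hB.1 (mem_zpowers b)
  set Y := kerI V H Q (lineSet A p \ {zpowers b}) with hYdef
  have hYQ : Y ≤ Q := fun x hx => (mem_kerI.mp hx).1
  let N := kerI V H Q (lineSet A p)
  have hNn : N.Normal := P.normal_kerI D Q
  have hNH : N ≤ H := fun x hx => hQH (mem_kerI.mp hx).1
  -- elements of `Y` centralised by `b` act trivially on the part
  have key : ∀ y ∈ Y, b * y = y * b → y ∈ partKer (V := V) H (zpowers b) := by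
    intro y hy hyb
    obtain ⟨a', ha'⟩ : ∃ a' : ℕ, b * f * b⁻¹ = f ^ a' := by
      have h := (mem_normalizer_iff.mp (P.normalizer_zpowers D hbA) f).mp (mem_zpowers f)
      rw [← mem_powers_iff_mem_zpowers] at h
      obtain ⟨i, hi⟩ := h
      exact ⟨i, hi.symm⟩
    let π := QuotientGroup.mk' N
    let F : ZMod q → Γ := fun k => f ^ k.val
    have hF : ∀ n : ℕ, f ^ n = F n := fun n => by
      show f ^ n = f ^ (n : ZMod q).val
      rw [ZMod.val_natCast, ← pow_eq_pow_mod n (P.hf ▸ pow_orderOf_eq_one f)]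
    let c : ZMod q → Γ := fun k => F k * y * (F k)⁻¹
    let Bk : ZMod q → Subgroup Γ := fun k => MulAut.conj (F k) • zpowers b
    have hcH : ∀ k, c k ∈ H := fun k => D.normal.conj_mem _ (hQH (hYQ hy)) _
    have hcQ : ∀ k, c k ∈ Q := fun k => (inferInstance : Q.Normal).conj_mem _ (hYQ hy) _
    have hcK : ∀ k, ∀ L ∈ lineSet A p, L ≠ Bk k → c k ∈ partKer (V := V) H L := by
      intro k L hL hne
      have hL' : L.map (MulAut.conj (F k)⁻¹).toMonoidHom ∈ lineSet A p \ {zpowers b} := by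
        refine ⟨conj_mem_lineSet (inv_mem (pow_mem P.hfA _)) hL, fun h => hne ?_⟩
        show L = MulAut.conj (F k) • zpowers b
        rw [← Set.mem_singleton_iff.mp h]
        exact (conj_smul_inv_smul (F k) L).symm
      have h := conj_mem_partKer H _ (F k) ((mem_kerI.mp hy).2 _ hL')
      rwa [show (L.map (MulAut.conj (F k)⁻¹).toMonoidHom).map (MulAut.conj (F k)).toMonoidHom = L from
        conj_smul_inv_smul _ L] at h
    have hBk : ∀ k k', k ≠ k' → Bk k ≠ Bk k' := by
      intro k k' hne h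
      have h1 : MulAut.conj (f ^ (q - k.val + k'.val)) • zpowers b = zpowers b := by
        have h2 : MulAut.conj ((F k)⁻¹ * F k') • zpowers b = zpowers b := by
          rw [conj_smul_mul, show MulAut.conj (F k') • zpowers b = Bk k from h.symm]
          exact conj_inv_smul_smul _ _
        convert h2 using 3
        have hfq : f ^ q = 1 := orderOf_dvd_iff_pow_eq_one.mp P.hf.dvd
        rw [eq_inv_mul_iff_mul_eq, ← pow_add, ← Nat.add_assoc, Nat.add_sub_cancel' (ZMod.val_lt k).le,
          pow_add, hfq, one_mul]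
      refine P.conj_ne D hB.1 hB.2 ?_ h1
      rw [← CharP.cast_eq_zero_iff (ZMod q) q, Nat.cast_add, Nat.cast_sub (ZMod.val_lt k).le,
        ZMod.natCast_self, ZMod.natCast_val, ZMod.natCast_val, ZMod.cast_id, ZMod.cast_id, zero_sub,
        neg_add_eq_zero]
      exact hne
    have hcomm : ∀ k k', π (c k) * π (c k') = π (c k') * π (c k) := by
      intro k k'
      by_cases hkk : k = k'
      · rw [hkk]
      apply commutatorElement_eq_one_iff_mul_comm.mp
      rw [← map_commutatorElement]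
      refine (QuotientGroup.eq_one_iff _).mpr (mem_kerI.mpr ⟨?_, fun L hL => ?_⟩)
      · exact commutator_mem_left (le_normalizer (hcQ k')) (hcQ k)
      by_cases hLk : L = Bk k
      · refine commutator_mem_swap (commutator_mem_left (D.le_normalizer_partKer _ (hcH k)) ?_)
        exact hcK k' L hL (fun h => hBk k k' hkk (hLk.symm.trans h))
      · exact commutator_mem_left (D.le_normalizer_partKer _ (hcH k')) (hcK k L hL hLk)
    let M : Subgroup (Γ ⧸ N) := closure (Set.range fun k => π (c k))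
    haveI : IsMulCommutative M := isMulCommutative_closure (by
      rintro _ ⟨k, rfl⟩ _ ⟨k', rfl⟩; exact hcomm k k')
    let z : ZMod q → M := fun k => ⟨π (c k), Subgroup.subset_closure ⟨k, rfl⟩⟩
    let Pr : M := ∏ k, z k
    have hperm : ∀ g : Γ, ∀ e : ZMod q ≃ ZMod q, (∀ k, g * c k * g⁻¹ = c (e k)) →
        π g * (Pr : Γ ⧸ N) = (Pr : Γ ⧸ N) * π g := by
      intro g e hge
      have hMM : ∀ m ∈ M, π g * m * (π g)⁻¹ ∈ M := by
        show M ≤ M.comap (MulAut.conj (π g)).toMonoidHom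
        rw [closure_le]
        rintro _ ⟨k, rfl⟩
        refine Subgroup.subset_closure ⟨e k, ?_⟩
        show π (c (e k)) = π g * π (c k) * (π g)⁻¹
        rw [← hge]; simp
      let φ : M →* M := ((MulAut.conj (π g)).toMonoidHom.comp M.subtype).codRestrict M fun m => hMM m m.2
      have h1 : φ Pr = Pr := by
        rw [map_prod]
        refine Fintype.prod_equiv e _ _ fun k => Subtype.ext ?_
        show π g * π (c k) * (π g)⁻¹ = π (c (e k))
        rw [← hge]; simp
      have h2 : π g * (Pr : Γ ⧸ N) * (π g)⁻¹ = Pr := congrArg Subtype.val h1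
      exact mul_inv_eq_iff_eq_mul.mp h2
    have hPf := hperm f (Equiv.addRight 1) fun k => by
      show f * (F k * y * (F k)⁻¹) * f⁻¹ = F (k + 1) * y * (F (k + 1))⁻¹
      have e1 : F (k + 1) = f * F k := by
        show F (k + 1) = f * f ^ k.val
        rw [← pow_succ', hF]
        congr 1
        simp
      rw [e1]; group
    have ha'0 : (a' : ZMod q) ≠ 0 := fun h => by
      rw [ZMod.natCast_eq_zero_iff] at h
      obtain ⟨i, rfl⟩ := h
      rw [pow_mul, ← P.hf, pow_orderOf_eq_one, one_pow] at ha'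
      exact P.hq.ne_one (by rw [← P.hf, show f = 1 from conj_eq_one_iff.mp ha', orderOf_one])
    have hPb := hperm b (Equiv.mulLeft₀ (a' : ZMod q) ha'0) fun k => by
      show b * (F k * y * (F k)⁻¹) * b⁻¹ = F ((a' : ZMod q) * k) * y * (F ((a' : ZMod q) * k))⁻¹
      have e1 : F ((a' : ZMod q) * k) = b * F k * b⁻¹ := by
        show F ((a' : ZMod q) * k) = b * f ^ k.val * b⁻¹
        rw [← conj_pow, ha', ← pow_mul, hF]
        congr 1
        simp
      rw [e1]
      calc b * (F k * y * (F k)⁻¹) * b⁻¹ = b * F k * b⁻¹ * (b * y * b⁻¹) * (b * F k * b⁻¹)⁻¹ := by group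
        _ = b * F k * b⁻¹ * y * (b * F k * b⁻¹)⁻¹ := by rw [hyb, mul_inv_cancel_right]
    obtain ⟨x, hxH, hxP⟩ : ∃ x ∈ H, π x = (Pr : Γ ⧸ N) :=
      ((closure_le (H.map π)).mpr (by rintro _ ⟨k, rfl⟩; exact mem_map_of_mem π (hcH k))) Pr.2
    have hcm : ∀ g, π g * (Pr : Γ ⧸ N) = (Pr : Γ ⧸ N) * π g → ⁅x, g⁆ ∈ N := fun g hg => by
      rw [← QuotientGroup.eq_one_iff]
      show π ⁅x, g⁆ = 1
      rw [map_commutatorElement, hxP]
      exact commutatorElement_eq_one_iff_mul_comm.mpr hg.symm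
    have hfb : b ∉ zpowers f := fun h => by
      have h2 := orderOf_dvd_of_mem_zpowers h
      rw [P.hf, hbp] at h2
      exact P.hne ((Nat.prime_dvd_prime_iff_eq P.hp P.hq).mp h2)
    have hxN : x ∈ N := D.mem_of_commutator_mem' (by rw [normalizer_eq_top]; exact le_top) hNH hxH
      (by rw [normalizer_eq_top]; exact mem_top x) hbA P.hfA
      (D.le_closure_pair hbA P.hfA (fun h => P.hq.ne_one (by rw [← P.hf, h, orderOf_one])) hfb)
      (hcm b hPb) (hcm f hPf)
    have hP1 : Pr = 1 := Subtype.ext (hxP.symm.trans ((QuotientGroup.eq_one_iff x).mpr hxN))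
    let K' : Subgroup M := ((partKer (V := V) H (zpowers b)).map π).comap M.subtype
    have hrest : ∏ k ∈ Finset.univ.erase (0 : ZMod q), z k ∈ K' := by
      refine prod_mem fun k hk => mem_map_of_mem π (hcK k _ hB ?_)
      have h := hBk k 0 (Finset.ne_of_mem_erase hk)
      rw [show Bk 0 = zpowers b by simp [Bk, F]] at h
      exact h.symm
    have hz0 : z 0 ∈ K' := by
      have h : z 0 * ∏ k ∈ Finset.univ.erase (0 : ZMod q), z k = 1 :=
        (Finset.mul_prod_erase _ _ (Finset.mem_univ _)).trans hP1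
      rw [eq_inv_of_mul_eq_one_left h]
      exact inv_mem hrest
    obtain ⟨m, hm, hmy⟩ := hz0
    have hmy' : π m = π y := hmy.trans (by simp [z, c, F])
    have h3 : m⁻¹ * y ∈ N := QuotientGroup.eq.mp hmy'
    have h4 := mul_mem hm ((mem_kerI.mp h3).2 _ hB)
    rwa [mul_inv_cancel_left] at h4
  -- so `b` is fixed-point-free modulo the kernel, and `Y` acts trivially
  intro y hy
  rw [mem_partKer]
  refine ⟨hQH (hYQ hy), fun v hv => ?_⟩
  let W : Subgroup V := fpfPart H (zpowers b)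
  have hbW : b ∈ stabSub (Γ := Γ) W := mem_stabSub fun w hw =>
    smul_fpfPart_normalizer H _ (le_normalizer (mem_zpowers b)) hw
  have hHW : H ≤ stabSub (Γ := Γ) W := le_stabSub fun g hg w hw => smul_fpfPart_of_mem H _ hg hw
  have hbY : b ∈ normalizer (Y : Set Γ) := D.mem_normalizer_kerI fun L hL =>
    ⟨conj_mem_lineSet (inv_mem hbA) hL.1, fun h => hL.2 (by
      have h1 : MulAut.conj b⁻¹ • L = zpowers b := Set.mem_singleton_iff.mp h
      rw [← conj_smul_inv_smul b L, h1]
      exact Set.mem_singleton_iff.mpr (conj_smul_eq_self (le_normalizer (mem_zpowers b))))⟩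
  have hYle : Y ≤ stabSub (Γ := Γ) W := (hYQ.trans hQH).trans hHW
  have hpA : p ∣ Nat.card A := P.hcard ▸ dvd_mul_right p q
  obtain ⟨i, hi⟩ := IsPGroup.iff_card.mp hQ
  refine congrArg Subtype.val (smul_eq_self_of_fixed_trivial (Γ := stabSub (Γ := Γ) W) (V := W) P.hp
    (t := ⟨b, hbW⟩) (Subtype.ext (hbp ▸ pow_orderOf_eq_one b)) (Q := Y.subgroupOf (stabSub (Γ := Γ) W))
    (by rw [mem_normalizer_iff]; exact fun z => mem_normalizer_iff.mp hbY (z : Γ))
    (by
      rw [Nat.card_congr (subgroupOfEquivOfLe hYle).toEquiv]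
      exact ((D.cop.coprime_dvd_left hpA).coprime_dvd_right (card_dvd_of_le (hYQ.trans hQH))))
    (fun z hz hzb w => Subtype.ext (((mem_partKer H _).mp (key _ hz (congrArg Subtype.val hzb))).2 _ w.2))
    (fun w hw => Subtype.ext (D.eq_one_of_fixed_fpfPart P.hp hbp hpA w.2 (congrArg Subtype.val hw)))
    (by
      rw [Nat.card_congr (subgroupOfEquivOfLe hYle).toEquiv]
      refine Nat.Coprime.coprime_dvd_right (card_subgroup_dvd_card W) ?_
      refine Nat.Coprime.coprime_dvd_left (card_dvd_of_le hYQ) ?_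
      rw [hi]
      exact Nat.Coprime.pow_left i (D.coprime_card ((Nat.coprime_primes Fact.out D.hl).mpr (Ne.symm hlq0))))
    (show (⟨y, hYle hy⟩ : stabSub (Γ := Γ) W) ∈ Y.subgroupOf _ from hy) ⟨v, hv⟩)

set_option maxHeartbeats 1000000 in
/-- An invariant subgroup of prime power order centralises the normal subgroups of other prime power
order. -/
theorem PQData.le_centralizer (P : PQData A p q f t a) (D : CoreData V H A l) {Q : Subgroup Γ} [Q.Normal]
    (hQH : Q ≤ H) {q0 r : ℕ} [Fact q0.Prime] [Fact r.Prime] (hQ : IsPGroup q0 Q) (hlq0 : l ≠ q0)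
    (hq0p : q0 ≠ p) (hq0q : q0 ≠ q) (hrq0 : r ≠ q0) (n : ℕ) :
    ∀ R : Subgroup Γ, Nat.card R = n → R ≤ H → A ≤ normalizer (R : Set Γ) → IsPGroup r R →
      R ≤ centralizer (Q : Set Γ) := by
  classical
  induction n using Nat.strongRecOn with | ind n ih => ?_
  intro R hn hRH hAR hR
  have := D.normal
  have hQN : ∀ g : Γ, g ∈ normalizer (Q : Set Γ) := fun g => by rw [normalizer_eq_top]; exact mem_top g
  have hpropR : ∀ R' : Subgroup Γ, R' ≤ R → R' ≠ R → A ≤ normalizer (R' : Set Γ) →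
      R' ≤ centralizer (Q : Set Γ) := fun R' hle hne hA' => by
    have hlt : Nat.card R' < Nat.card R := lt_of_le_of_ne
      (Nat.card_le_card_of_injective _ (inclusion_injective hle))
      fun h => hne (eq_of_le_of_card_ge hle h.ge)
    exact ih _ (hn ▸ hlt) R' rfl (hle.trans hRH) hA' (hR.to_le hle)
  by_cases hR1 : R = ⊥
  · rw [hR1]; exact bot_le
  obtain ⟨iR, hiR⟩ := IsPGroup.iff_card.mp hR
  obtain ⟨iQ, hiQ⟩ := IsPGroup.iff_card.mp hQ
  have hrH : r ∣ Nat.card H := (dvd_pow_self r (fun h0 => hR1 (eq_bot_of_card_eq R (by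
    rw [hiR, h0, pow_zero])))).trans (hiR ▸ card_dvd_of_le hRH)
  have hrA : ∀ m : ℕ, m.Prime → m ∣ Nat.card A → r ≠ m := fun m hm hd e =>
    hm.ne_one (Nat.eq_one_of_dvd_coprimes D.cop hd (e ▸ hrH))
  have hpA : p ∣ Nat.card A := P.hcard ▸ dvd_mul_right p q
  have hqA : q ∣ Nat.card A := P.hcard ▸ dvd_mul_left q p
  have hRQcop : (Nat.card R).Coprime (Nat.card Q) := by
    rw [hiR, hiQ]; exact Nat.Coprime.pow _ _ ((Nat.coprime_primes Fact.out Fact.out).mpr hrq0)
  have hΦ : (frattini R).map R.subtype ≤ centralizer (Q : Set Γ) := by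
    refine hpropR _ (map_subtype_le _) (fun h => ?_) (hAR.trans (le_normalizer_map_frattini R))
    have h1 : frattini R = ⊤ := map_injective R.subtype_injective (by
      rw [← MonoidHom.range_eq_map, range_subtype]; exact h)
    have h2 : (⊥ : Subgroup R) = ⊤ := frattini_nongenerating (by rw [h1, sup_top_eq])
    refine hR1 ((eq_bot_iff_forall _).mpr fun x hx => ?_)
    have h3 : (⟨x, hx⟩ : R) ∈ (⊥ : Subgroup R) := by rw [h2]; exact mem_top _
    exact congrArg Subtype.val (mem_bot.mp h3)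
  let Dk : Subgroup Γ → Subgroup Γ := fun B => bracketKer (Q : Set Γ) R (partKer (V := V) H B)
  have hDR : ∀ B, Dk B ≤ R := fun B => bracketKer_le _ _ _
  have hRD : ∀ B, R ≤ normalizer ((Dk B : Subgroup Γ) : Set Γ) := fun B x hx =>
    mem_normalizer_bracketKer (hQN x) (le_normalizer hx) (D.le_normalizer_partKer B (hRH hx))
  have hDcent : ∀ B x, x ∈ R → x ∈ centralizer (Q : Set Γ) → x ∈ Dk B := fun B x hx hc =>
    ⟨hx, D.le_normalizer_partKer B (hRH hx), fun y hy => by
      rw [commutatorElement_eq_one_iff_mul_comm.mpr (mem_centralizer_iff.mp hc y hy)]; exact one_mem _⟩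
  -- the brackets with a generator of a line
  have hbr : ∀ b ∈ A, ∀ m : ℕ, m.Prime → orderOf b = m → (m = q → NotException m q0) →
      (m = p ∨ m = q) → ∀ x ∈ R, ⁅x, b⁆ ∈ Dk (zpowers b) := by
    intro b hbA m hm hbm hexq hmpq x hx
    have hzR : ⁅x, b⁆ ∈ R := commutator_mem_left (hAR hbA) hx
    refine ⟨hzR, D.le_normalizer_partKer _ (hRH hzR), fun y hy => ?_⟩
    rw [mem_partKer]
    refine ⟨mul_mem (mul_mem (mul_mem (hQH hy) (hRH hzR)) (inv_mem (hQH hy))) (inv_mem (hRH hzR)), ?_⟩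
    intro v hv
    have hWH : ∀ h ∈ H, ∀ w ∈ fpfPart (V := V) H (zpowers b), h • w ∈ fpfPart (V := V) H (zpowers b) :=
      fun h hh w hw => smul_fpfPart_of_mem H _ hh hw
    refine commutator_smul_eq (W := fpfPart (V := V) H (zpowers b)) (fun w hw => hWH _ (inv_mem (hQH hy)) w hw)
      (fun w hw => hWH _ (inv_mem (hRH hzR)) w hw) ?_ hv
    by_cases hex : NotException m q0
    · -- Hall-Higman
      have hm0 : q0 ≠ m := by rcases hmpq with rfl | rfl <;> assumption
      have key := D.commute_on_part hbA hm hbm hQ hQH hm0 hlq0 hex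
      intro w hw
      have hy' : x⁻¹ * y * x ∈ Q := by simpa using (inferInstance : Q.Normal).conj_mem y hy x⁻¹
      have hw1 : b⁻¹ • w ∈ fpfPart (V := V) H (zpowers b) :=
        smul_fpfPart_normalizer H _ (inv_mem (le_normalizer (mem_zpowers b))) hw
      have hw2 := hWH _ (inv_mem (hRH hx)) _ hw1
      have e1 : b⁻¹ • y • w = y • b⁻¹ • w := by
        rw [inv_smul_eq_iff, key y hy _ hw1, smul_inv_smul]
      rw [commutatorElement_def, mul_smul, mul_smul, mul_smul, e1, mul_smul, mul_smul, mul_smul]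
      rw [show x⁻¹ • y • b⁻¹ • w = (x⁻¹ * y * x) • x⁻¹ • b⁻¹ • w by
        simp only [smul_smul]; congr 1; group]
      rw [key _ hy' _ hw2]
      simp only [smul_smul]; congr 1; group
    · -- the Fermat corner
      have hmp : m = p := hmpq.resolve_right fun h => hex (hexq h)
      subst hmp
      obtain ⟨hq02, -⟩ : q0 = 2 ∧ ∃ k, m = 2 ^ k + 1 := by
        simp only [NotException, not_or, not_not] at hex
        exact ⟨hex.1, hex.2⟩
      subst hq02
      have hl2 : Nat.Coprime 2 l := (Nat.coprime_primes Nat.prime_two D.hl).mpr (Ne.symm hlq0)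
      let W : Subgroup V := fpfPart H (zpowers b)
      have hbW : b ∈ stabSub (Γ := Γ) W := mem_stabSub fun u hu =>
        smul_fpfPart_normalizer H _ (le_normalizer (mem_zpowers b)) hu
      have hHW : H ≤ stabSub (Γ := Γ) W := le_stabSub fun g hg u hu => hWH g hg u hu
      have hcent : ∀ g ∈ centralizer (Q : Set Γ), ∀ hg : g ∈ stabSub (Γ := Γ) W,
          (⟨g, hg⟩ : stabSub (Γ := Γ) W) ∈ centralizer (Q.subgroupOf (stabSub (Γ := Γ) W) : Set (stabSub (Γ := Γ) W)) :=
        fun g hgc hg => mem_centralizer_iff.mpr fun z hz => Subtype.ext (mem_centralizer_iff.mp hgc z hz)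
      have key := corner (G := stabSub (Γ := Γ) W) (W := W) hm (Ne.symm hq0p) (Fact.out : r.Prime) hrq0
        (hrA m hm hpA) (s := ⟨b, hbW⟩) (Subtype.ext (hbm ▸ pow_orderOf_eq_one b))
        (fun u hu => Subtype.ext (D.eq_one_of_fixed_fpfPart hm hbm hpA u.2 (congrArg Subtype.val hu)))
        ((D.coprime_card hl2).coprime_dvd_right (card_subgroup_dvd_card W))
        (Q := Q.subgroupOf (stabSub (Γ := Γ) W)) (Y := R.subgroupOf (stabSub (Γ := Γ) W))
        (hQ.comap_of_injective _ (Subgroup.subtype_injective _))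
        (hR.comap_of_injective _ (Subgroup.subtype_injective _))
        (fun g _ => by rw [mem_normalizer_iff]; exact fun z => mem_normalizer_iff.mp (hQN g) (z : Γ))
        (by rw [mem_normalizer_iff]; exact fun z => mem_normalizer_iff.mp (hQN b) (z : Γ))
        (by rw [mem_normalizer_iff]; exact fun z => mem_normalizer_iff.mp (hAR hbA) (z : Γ))
        (fun u hu u' hu' => hcent _ (hΦ ⟨⁅(⟨u, hu⟩ : R), ⟨u', hu'⟩⁆,
          PGroupFrattini.commutator_le_frattini hR (commutator_mem_commutator (mem_top _) (mem_top _)),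
          rfl⟩) _)
        (fun u hu => hcent _ (hΦ ⟨(⟨u, hu⟩ : R) ^ r, PGroupFrattini.pow_mem_frattini hR _, rfl⟩) _)
      intro w hw
      have h := key ⁅(⟨x, hHW (hRH hx)⟩ : stabSub (Γ := Γ) W), ⟨b, hbW⟩⁆
        (commutator_mem_commutator hx (mem_zpowers _)) ⟨y, hHW (hQH hy)⟩ hy ⟨w, hw⟩
      exact congrArg Subtype.val h
  have hexq : NotException q q0 := by
    by_cases h2 : q0 = 2
    · subst h2
      refine Or.inr ?_
      rintro ⟨k, hk⟩
      refine hq0p ((Nat.prime_dvd_prime_iff_eq P.hp Nat.prime_two).mp (P.hp.dvd_of_dvd_pow (n := k) ?_)).symm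
      have h := P.dvd_sub_one
      rwa [hk, Nat.add_sub_cancel] at h
    · exact Or.inl h2
  -- the part of `f`
  have hMFn : (partKer (V := V) H (zpowers f)).Normal := by
    rw [← normalizer_eq_top_iff, eq_top_iff, ← D.sup]
    exact sup_le (D.le_normalizer_partKer _) fun g hg => mem_normalizer_of_conj_mem fun x hx =>
      conj_mem_partKer_normalizer H _ (P.normalizer_zpowers D hg) hx
  have hDF : Dk (zpowers f) = R := by
    set MF := partKer (V := V) H (zpowers f) with hMFdef
    have hMFN : ∀ g : Γ, g ∈ normalizer (MF : Set Γ) := fun g => by rw [normalizer_eq_top]; exact mem_top g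
    have hMFH : MF ≤ H := inf_le_left
    have hAD : A ≤ normalizer ((Dk (zpowers f) : Subgroup Γ) : Set Γ) := fun g hg =>
      mem_normalizer_bracketKer (hQN g) (hAR hg) (hMFN g)
    by_contra hne
    have hc := hpropR _ (hDR _) hne hAD
    let π := QuotientGroup.mk' MF
    have hqf : f ∈ A := P.hfA
    have htf : A ≤ closure {t, f} := D.le_closure_pair P.htA P.hfA
      (fun h => P.hq.ne_one (by rw [← P.hf, h, orderOf_one])) fun h => by
        have h2 := orderOf_dvd_of_mem_zpowers h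
        rw [P.hf, P.ht] at h2
        exact P.hne ((Nat.prime_dvd_prime_iff_eq P.hp P.hq).mp h2)
    have hkey := D.commute_on_part P.hfA P.hq P.hf hQ hQH hq0q hlq0 hexq
    have hQf : ∀ y ∈ Q, ⁅y, f⁆ ∈ MF := fun y hy => (mem_partKer H _).mpr
      ⟨commutator_mem_left (by rw [normalizer_eq_top]; exact mem_top f) (hQH hy), fun v hv =>
        commutator_smul_eq (W := fpfPart (V := V) H (zpowers f))
          (fun w hw => smul_fpfPart_of_mem H _ (inv_mem (hQH hy)) hw)
          (fun w hw => smul_fpfPart_normalizer H _ (inv_mem (le_normalizer (mem_zpowers f))) hw)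
          (fun w hw => hkey y hy w hw) hv⟩
    have hπc : ∀ u w : Γ, π u * π w = π w * π u → ⁅u, w⁆ ∈ MF := fun u w h => by
      rw [← QuotientGroup.eq_one_iff]
      show π ⁅u, w⁆ = 1
      rw [map_commutatorElement]
      exact commutatorElement_eq_one_iff_mul_comm.mpr h
    have hle := le_centralizer_of_fpf (G := Γ ⧸ MF) P.hp (P := Q.map π) (R := R.map π) (hQ.map π)
      (t := π t) (by rw [← map_pow, ← P.ht, pow_orderOf_eq_one, map_one])
      ((map_mono fun g _ => hQN g).trans (le_normalizer_map _))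
      (le_normalizer_map _ (mem_map_of_mem π (hQN t)))
      (le_normalizer_map _ (mem_map_of_mem π (hAR P.htA)))
      (by
        rintro _ ⟨y, hy, rfl⟩ hyt
        exact (QuotientGroup.eq_one_iff y).mpr (D.mem_of_commutator_mem' (fun g _ => hMFN g) hMFH (hQH hy)
          (hMFN y) P.htA P.hfA htf (hπc y t hyt.symm) (hQf y hy)))
      (by
        rintro _ ⟨x, hx, rfl⟩ hxt
        have hxt' : ⁅x, t⁆ ∈ MF := hπc x t hxt.symm
        have hzR : ⁅x, t⁆ ∈ R := commutator_mem_left (hAR P.htA) hx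
        have hxD : x ∈ Dk (zpowers f) := D.mem_of_commutator_mem' hAD ((hDR _).trans hRH) (hRH hx)
          (hRD _ hx) P.htA P.hfA htf
          ⟨hzR, D.le_normalizer_partKer _ (hRH hzR), fun y _ =>
            commutator_mem_swap (commutator_mem_left (hMFN y) hxt')⟩
          (hbr f P.hfA q P.hq P.hf (fun _ => hexq) (Or.inr rfl) x hx)
        refine mem_centralizer_iff.mpr ?_
        rintro _ ⟨y, hy, rfl⟩
        exact commutatorElement_eq_one_iff_mul_comm.mp
          ((map_commutatorElement π y x).symm.trans ((QuotientGroup.eq_one_iff _).mpr (hxD.2.2 y hy))))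
      ((((D.cop.coprime_dvd_left hpA).coprime_dvd_right (card_dvd_of_le hQH))).coprime_dvd_right
        (card_map_dvd Q π))
      ((((D.cop.coprime_dvd_left hpA).coprime_dvd_right (card_dvd_of_le hRH))).coprime_dvd_right
        (card_map_dvd R π))
      ((hRQcop.coprime_dvd_left (card_map_dvd R π)).coprime_dvd_right (card_map_dvd Q π))
    exact hne (le_antisymm (hDR _) fun x hx => ⟨hx, hMFN x, fun y hy => hπc y x
      (mem_centralizer_iff.mp (hle (mem_map_of_mem π hx)) _ (mem_map_of_mem π hy))⟩)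
  -- comaximality
  have hcomax : ∀ B ∈ lineSet A p, ∀ B' ∈ lineSet A p, B ≠ B' → R ≤ Dk B ⊔ Dk B' := by
    intro B hB B' hB' hne x hx
    obtain ⟨b, rfl, hbp⟩ := exists_generator P.hp hB.2
    obtain ⟨c, rfl, hcp⟩ := exists_generator P.hp hB'.2
    have hbA : b ∈ A := hB.1 (mem_zpowers b)
    have hcA : c ∈ A := hB'.1 (mem_zpowers c)
    have hbc : b ∉ zpowers c := fun h => hne (eq_of_le_of_card_ge (zpowers_le.mpr h) (by rw [hB.2, hB'.2]))
    have hgen := D.le_closure_pair hbA hcA (fun h => P.hp.ne_one (by rw [← hcp, h, orderOf_one])) hbc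
    have hnp : p ≠ q := P.hne
    have hb' := hbr b hbA p P.hp hbp (fun h => absurd h hnp) (Or.inl rfl)
    have hc' := hbr c hcA p P.hp hcp (fun h => absurd h hnp) (Or.inl rfl)
    set M := Dk (zpowers b) ⊔ Dk (zpowers c) with hMdef
    have hMR : M ≤ R := sup_le (hDR _) (hDR _)
    have hMn : ∀ g ∈ A, g ∈ normalizer ((Dk (zpowers g) : Subgroup Γ) : Set Γ) := fun g hg =>
      mem_normalizer_bracketKer (hQN g) (hAR hg) (mem_normalizer_of_conj_mem fun u hu =>
        conj_mem_partKer_normalizer H _ (le_normalizer (mem_zpowers g)) hu)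
    have hnorm : ∀ g ∈ A, Dk (zpowers g) ≤ M → (∀ u ∈ R, ⁅u, g⁆ ∈ Dk (zpowers g)) →
        g ∈ normalizer (M : Set Γ) := by
      intro g hgA hgM hgbr
      refine mem_normalizer_of_conj_mem ?_
      show M ≤ M.comap (MulAut.conj g).toMonoidHom
      have key : ∀ L : Subgroup Γ, L ≤ M → L ≤ M.comap (MulAut.conj g).toMonoidHom := by
        intro L hL u hu
        show g * u * g⁻¹ ∈ M
        have e : g * u * g⁻¹ = ⁅u, g⁆⁻¹ * u := by simp only [commutatorElement_def]; group
        rw [e]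
        exact mul_mem (inv_mem (hgM (hgbr u (hMR (hL hu))))) (hL hu)
      exact key M le_rfl
    refine D.mem_of_commutator_mem' (N := M) ?_ (hMR.trans hRH) (hRH hx) ?_ hbA hcA hgen
      (le_sup_left (b := Dk (zpowers c)) (hb' x hx)) (le_sup_right (a := Dk (zpowers b)) (hc' x hx))
    · refine hgen.trans ((closure_le _).mpr ?_)
      rintro g (rfl | rfl)
      · exact hnorm g hbA le_sup_left hb'
      · exact hnorm g hcA le_sup_right hc'
    · refine mem_normalizer_of_conj_mem ?_
      show M ≤ M.comap (MulAut.conj x).toMonoidHom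
      refine sup_le ?_ ?_ <;> intro u hu
      · exact (le_sup_left : Dk (zpowers b) ≤ M) ((mem_normalizer_iff.mp (hRD _ hx) u).mp hu)
      · exact (le_sup_right : Dk (zpowers c) ≤ M) ((mem_normalizer_iff.mp (hRD _ hx) u).mp hu)
  -- the bracket lies in every kernel
  have hRQN : R ≤ normalizer (Q : Set Γ) := fun g _ => hQN g
  have hTQ : ⁅Q, R⁆ ≤ Q := commutator_le_of_le_normalizer' hRQN
  have hTF : ⁅Q, R⁆ ≤ partKer (V := V) H (zpowers f) := commutator_le.mpr fun y hy x hx =>
    (hDF.symm ▸ hx : x ∈ Dk (zpowers f)).2.2 y hy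
  have hsolvR : Group.IsSolvable R := Coprime.isSolvable_of_le hRH D.solv
  have hT2 : ⁅⁅Q, R⁆, R⁆ = ⁅Q, R⁆ := commutator_commutator hRQN hRQcop (Or.inl hsolvR)
  have hTB : ∀ B ∈ lineSet A p, ⁅Q, R⁆ ≤ partKer (V := V) H B := by
    intro B hB
    let N0 : Subgroup Γ := kerI V H Q {B}
    have key : ∀ S : Finset (Subgroup Γ), (↑S ⊆ lineSet A p \ {B}) →
        ⁅Q, R⁆ ≤ N0 ⊔ kerI V H Q (S : Set (Subgroup Γ)) := by
      intro S
      induction S using Finset.induction_on with
      | empty =>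
        intro _
        exact hTQ.trans (le_trans (fun x hx => mem_kerI.mpr ⟨hx, fun B hB => by simp at hB⟩) le_sup_right)
      | insert B' S hB'S ihS =>
        intro hS
        rw [Finset.coe_insert, Set.insert_subset_iff] at hS
        rw [← hT2]
        refine (commutator_mono (ihS hS.2) le_rfl).trans ?_
        rw [Finset.coe_insert]
        set M := N0 ⊔ kerI V H Q (insert B' (S : Set (Subgroup Γ))) with hMdef
        have hHM : H ≤ normalizer (M : Set Γ) := fun g hg => mem_normalizer_of_conj_mem (by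
          show M ≤ M.comap (MulAut.conj g).toMonoidHom
          refine sup_le ?_ ?_ <;> intro u hu
          · exact (le_sup_left : N0 ≤ M) ((mem_normalizer_iff.mp (D.le_normalizer_kerI _ hg) u).mp hu)
          · exact (le_sup_right : kerI V H Q _ ≤ M)
              ((mem_normalizer_iff.mp (D.le_normalizer_kerI _ hg) u).mp hu))
        have hstep : ∀ x ∈ R, ∀ y ∈ kerI V H Q (S : Set (Subgroup Γ)), ⁅y, x⁆ ∈ M := by
          have hle : R ≤ bracketKer (kerI V H Q (S : Set (Subgroup Γ)) : Set Γ) R M := by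
            refine (hcomax B hB B' hS.1.1 (fun h => hS.1.2 h.symm)).trans (sup_le ?_ ?_)
            · intro x hx
              refine ⟨hx.1, hHM (hRH hx.1), fun y hy => (le_sup_left : N0 ≤ M) (mem_kerI.mpr ⟨?_, ?_⟩)⟩
              · exact commutator_mem_left (hQN x) (mem_kerI.mp hy).1
              · intro L hL
                rw [Set.mem_singleton_iff.mp hL]
                exact hx.2.2 y (mem_kerI.mp hy).1
            · intro x hx
              refine ⟨hx.1, hHM (hRH hx.1), fun y hy => (le_sup_right : kerI V H Q _ ≤ M) (mem_kerI.mpr ⟨?_, ?_⟩)⟩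
              · exact commutator_mem_left (hQN x) (mem_kerI.mp hy).1
              · intro L hL
                rcases Set.mem_insert_iff.mp hL with rfl | hL
                · exact hx.2.2 y (mem_kerI.mp hy).1
                · exact commutator_mem_left (D.le_normalizer_partKer L (hRH hx.1)) ((mem_kerI.mp hy).2 L hL)
          exact fun x hx y hy => (hle hx).2.2 y hy
        have hsup : N0 ⊔ kerI V H Q (S : Set (Subgroup Γ)) ≤ bracketKer (R : Set Γ) Q M := by
          refine sup_le (fun y hy => ?_) (fun y hy => ?_)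
          · exact ⟨(mem_kerI.mp hy).1, hHM (hQH (mem_kerI.mp hy).1), fun x hx =>
              commutator_mem_swap ((le_sup_left : N0 ≤ M)
                (commutator_mem_left (D.le_normalizer_kerI _ (hRH hx)) hy))⟩
          · exact ⟨(mem_kerI.mp hy).1, hHM (hQH (mem_kerI.mp hy).1), fun x hx =>
              commutator_mem_swap (hstep x hx y hy)⟩
        exact commutator_le.mpr fun y hy x hx => commutator_mem_swap ((hsup hy).2.2 x hx)
    have : Fintype (Subgroup Γ) := Fintype.ofFinite _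
    refine (key (lineSet A p \ {B}).toFinset (by rw [Set.coe_toFinset])).trans (sup_le ?_ ?_)
    · exact fun x hx => (mem_kerI.mp hx).2 B rfl
    · rw [Set.coe_toFinset]
      exact P.kerI_erase_le D hQH hQ hlq0 hq0p hB
  have hNn := P.normal_kerI D Q
  have hM := D.eq_bot_of_le_partKer (kerI V H Q (lineSet A p) ⊓ partKer (V := V) H (zpowers f))
    (inf_le_left.trans fun x hx => hQH (mem_kerI.mp hx).1) fun B hBA hBp => by
      rcases P.eq_zpowers_or_card D hBA hBp with rfl | h
      · exact inf_le_right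
      · exact inf_le_left.trans fun x hx => (mem_kerI.mp hx).2 B ⟨hBA, h⟩
  rw [← commutator_eq_bot_iff_le_centralizer, commutator_comm, eq_bot_iff]
  exact (le_inf (fun x hx => mem_kerI.mpr ⟨hTQ hx, fun B hB => hTB B hB hx⟩) hTF).trans hM.le

/-- The core for a non-abelian group of order `pq`. -/
theorem PQData.isNilpotent (P : PQData A p q f t a) (D : CoreData V H A l) : Group.IsNilpotent H := by
  have := D.normal
  have := D.solv
  refine isNilpotent_of_sylow_centralize fun q0 r hq0 hr hne R => ?_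
  have : Fact q0.Prime := ⟨hq0⟩
  have : Fact r.Prime := ⟨hr⟩
  let Q : Subgroup Γ := (pCore q0 H).map H.subtype
  have hQp : IsPGroup q0 Q := (isPGroup_pCore (G := H) q0).map _
  have hQn : Q.Normal := inferInstance
  have hQH : Q ≤ H := map_subtype_le _
  by_cases hQ1 : Q = ⊥
  · rw [(map_eq_bot_iff_of_injective _ H.subtype_injective).mp hQ1, le_centralizer_iff]
    exact bot_le
  have hlq0 : l ≠ q0 := fun e => hQ1 (D.core Q hQn hQH (e ▸ hQp))
  have hq0H : q0 ∣ Nat.card H := by
    obtain ⟨i, hi⟩ := IsPGroup.iff_card.mp hQp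
    exact (dvd_pow_self q0 (fun h0 => hQ1 (eq_bot_of_card_eq Q (by rw [hi, h0, pow_zero])))).trans
      (hi ▸ card_dvd_of_le hQH)
  have hq0A : ∀ m : ℕ, m.Prime → m ∣ Nat.card A → q0 ≠ m := fun m hm hd e =>
    hm.ne_one (Nat.eq_one_of_dvd_coprimes D.cop hd (e ▸ hq0H))
  obtain ⟨R0, hR0⟩ := exists_invariant_sylow (A := A) (K := H) (by rw [normalizer_eq_top]; exact le_top)
    D.cop (Or.inl D.asolv) r
  have hc := P.le_centralizer D hQH hQp hlq0 (hq0A p P.hp (P.hcard ▸ dvd_mul_right p q))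
    (hq0A q P.hq (P.hcard ▸ dvd_mul_left q p)) (Ne.symm hne) _ _ rfl (map_subtype_le _) hR0 (R0.2.map _)
  have hc0 : (R0 : Subgroup H) ≤ centralizer (pCore q0 H : Set H) := fun x hx =>
    mem_centralizer_iff.mpr fun y hy =>
      Subtype.ext (mem_centralizer_iff.mp (hc (mem_map_of_mem H.subtype hx)) _ (mem_map_of_mem H.subtype hy))
  obtain ⟨k, rfl⟩ := MulAction.exists_smul_eq H R0 R
  show MulAut.conj k • (R0 : Subgroup H) ≤ _
  rw [← conj_smul_of_normal (centralizer (pCore q0 H : Set H)) k]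
  exact pointwise_smul_le_pointwise_smul_iff.mpr hc0

end PQ

end Cfsg.Agent.Lib.FitHeight
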