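import Cfsg.Agent.Lib.FitHeight.Pieces
import Cfsg.Agent.Lib.FitHeight.HallHigman
import Cfsg.Agent.Lib.Hall.Solvable

/-! The core for `S₃` acting coprimely without fixed points: the group modulo its faithful module is
abelian. -/

set_option autoImplicit false

namespace Cfsg.Agent.Lib.FitHeight

open scoped Pointwise commutatorElement
open Subgroup Cfsg.Agent.Lib.Coprime Cfsg.Agent.Lib.Hall

variable {Γ : Type*} [Group Γ] [Finite Γ] {V : Type*} [CommGroup V] [MulDistribMulAction Γ V]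
  {H A : Subgroup Γ} {l : ℕ}

theorem CoreData.mem_of_commutator_mem [Finite V] (D : CoreData V H A l) {N : Subgroup Γ} [N.Normal]
    (hNH : N ≤ H) {x : Γ} (hx : x ∈ H) {a b : Γ} (hA : A ≤ closure {a, b})
    (ha : ⁅x, a⁆ ∈ N) (hb : ⁅x, b⁆ ∈ N) : x ∈ N := by
  have := D.normal
  let π := QuotientGroup.mk' N
  have hfix : A ≤ (centralizer {π x}).comap π := hA.trans ((closure_le _).mpr (by
    intro g hg
    refine mem_centralizer_singleton_iff.mpr ?_
    have h : ⁅π x, π g⁆ = 1 := by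
      rw [← map_commutatorElement]
      rcases hg with rfl | rfl
      · exact (QuotientGroup.eq_one_iff _).mpr ha
      · exact (QuotientGroup.eq_one_iff _).mpr hb
    exact (commutatorElement_eq_one_iff_mul_comm.mp h).symm))
  obtain ⟨c, hc, hcn⟩ := exists_centralizer_mem_coset (A := A) (N := N) (k := x)
    (by rw [normalizer_eq_top]; exact le_top) (D.cop.coprime_dvd_right (card_dvd_of_le hNH))
    (Or.inl D.asolv) fun g hg => by
      rw [← QuotientGroup.eq_one_iff]
      show π (x⁻¹ * (g * x * g⁻¹)) = 1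
      simp only [map_mul, map_inv]
      rw [mem_centralizer_singleton_iff.mp (hfix hg), mul_inv_cancel_right, inv_mul_cancel]
  have hc1 : c ∈ H ⊓ centralizer (A : Set Γ) := ⟨by simpa using H.mul_mem hx (hNH hcn), hc⟩
  rw [D.fpf, mem_bot] at hc1
  rw [hc1, mul_one] at hcn
  exact inv_mem_iff.mp hcn

theorem CoreData.smul_eq_inv [Finite V] {s : Γ} (hs : s * s = 1) (hs1 : s ≠ 1) {v : V}
    (hv : v ∈ fpfPart H (zpowers s)) : s • v = v⁻¹ := by
  have h := orbProd_eq_one_of_mem_fpfPart H _ hv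
  rw [orbProd_zpowers, orderOf_eq_prime (p := 2) (by rw [pow_two, hs]) hs1] at h
  simp only [cycProd, Finset.prod_range_succ, Finset.prod_range_zero, one_mul, pow_zero, one_smul,
    pow_one] at h
  exact eq_inv_of_mul_eq_one_right h

theorem CoreData.commutator_mem_partKer [Finite V] (D : CoreData V H A l) {s : Γ} (hs : s * s = 1)
    (hs1 : s ≠ 1) {h : Γ} (hh : h ∈ H) : ⁅h, s⁆ ∈ partKer (V := V) H (zpowers s) := by
  have := D.normal
  rw [mem_partKer]
  have hH : ⁅h, s⁆ ∈ H := by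
    rw [commutatorElement_def, mul_assoc, mul_assoc, ← mul_assoc s]
    exact H.mul_mem hh ((inferInstance : H.Normal).conj_mem _ (H.inv_mem hh) s)
  refine ⟨hH, fun v hv => ?_⟩
  have hsi : s⁻¹ = s := inv_eq_of_mul_eq_one_right hs
  rw [commutatorElement_def, mul_smul, mul_smul, mul_smul, hsi, CoreData.smul_eq_inv hs hs1 hv, smul_inv',
    smul_inv', CoreData.smul_eq_inv hs hs1 (smul_fpfPart_of_mem H _ (H.inv_mem hh) hv), inv_inv,
    smul_inv_smul]

/-- The derived group is trivial on the part of each involution. -/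
theorem CoreData.commutator_le_partKer_involution [Finite V] (D : CoreData V H A l) {a b : Γ}
    (haA : a ∈ A) (hbA : b ∈ A) (ha : a * a = 1) (ha1 : a ≠ 1) (hb : b * b = 1) (hb1 : b ≠ 1)
    (hbr : a * b * a = b * a * b) (hA : A ≤ closure {a, b}) :
    ⁅H, H⁆ ≤ partKer (V := V) H (zpowers a) := by
  have := D.normal
  let c := a * b * a
  have hc : c * c = 1 := by
    show a * b * a * (a * b * a) = 1
    calc a * b * a * (a * b * a) = a * b * (a * a) * (b * a) := by simp only [mul_assoc]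
      _ = a * (b * b) * a := by rw [ha, mul_one]; simp only [mul_assoc]
      _ = 1 := by rw [hb, mul_one, ha]
  have hai : a⁻¹ = a := inv_eq_of_mul_eq_one_right ha
  have hbi : b⁻¹ = b := inv_eq_of_mul_eq_one_right hb
  have hc1 : c ≠ 1 := fun h => hb1 (by
    have : b = a * c * a := by
      show b = a * (a * b * a) * a
      calc b = (a * a) * b * (a * a) := by rw [ha, one_mul, mul_one]
        _ = _ := by simp only [mul_assoc]
    rw [this, h, mul_one, ha])
  let Ma := partKer (V := V) H (zpowers a)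
  let Mb := partKer (V := V) H (zpowers b)
  let Mc := partKer (V := V) H (zpowers c)
  have conj : ∀ g s : Γ, ∀ x ∈ partKer (V := V) H (zpowers s),
      g * x * g⁻¹ ∈ partKer (V := V) H (zpowers (g * s * g⁻¹)) := fun g s x hx => by
    have h := conj_mem_partKer H (zpowers s) g hx
    rwa [MonoidHom.map_zpowers] at h
  have conj' : ∀ g s s' : Γ, g * s * g⁻¹ = s' → ∀ x ∈ partKer (V := V) H (zpowers s),
      g * x * g⁻¹ ∈ partKer (V := V) H (zpowers s') := fun g s s' e x hx => e ▸ conj g s x hx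
  have e_aa : a * a * a⁻¹ = a := by rw [mul_inv_cancel_right]
  have e_ab : a * b * a⁻¹ = c := by rw [hai]
  have e_ac : a * c * a⁻¹ = b := by
    rw [hai]; show a * (a * b * a) * a = b
    calc a * (a * b * a) * a = (a * a) * b * (a * a) := by simp only [mul_assoc]
      _ = b := by rw [ha, one_mul, mul_one]
  have e_bb : b * b * b⁻¹ = b := by rw [mul_inv_cancel_right]
  have e_ba : b * a * b⁻¹ = c := by rw [hbi]; exact hbr.symm
  have e_bc : b * c * b⁻¹ = a := by
    rw [hbi]; show b * (a * b * a) * b = a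
    rw [hbr]
    calc b * (b * a * b) * b = (b * b) * a * (b * b) := by simp only [mul_assoc]
      _ = a := by rw [hb, one_mul, mul_one]
  have hsle : ∀ s, partKer (V := V) H (zpowers s) ≤ H := fun s => inf_le_left
  -- normal subgroups of `Γ`
  have mkN : ∀ M : Subgroup Γ, (∀ h ∈ H, ∀ x ∈ M, h * x * h⁻¹ ∈ M) → (∀ x ∈ M, a * x * a⁻¹ ∈ M) →
      (∀ x ∈ M, b * x * b⁻¹ ∈ M) → M.Normal := by
    intro M hH ha' hb'
    rw [← normalizer_eq_top_iff, eq_top_iff, ← D.sup]
    have hfin : ∀ g : Γ, (∀ x ∈ M, g * x * g⁻¹ ∈ M) → g ∈ normalizer (M : Set Γ) := fun g hg => by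
      refine mem_normalizer_of_conj_smul_eq (eq_of_le_of_card_ge ?_ (card_conj_smul g M).ge)
      intro x hx
      rw [mem_conj_smul] at hx
      simpa [mul_assoc] using hg _ hx
    refine sup_le (fun h hh => hfin h (hH h hh)) (hA.trans ((closure_le _).mpr ?_))
    rintro g (rfl | rfl)
    · exact hfin g ha'
    · exact hfin g hb'
  let N : Subgroup Γ := Ma ⊓ Mb ⊓ Mc
  have hN : N.Normal := mkN N
    (fun h hh x hx => ⟨⟨conj_mem_partKer_of_mem H _ hh hx.1.1, conj_mem_partKer_of_mem H _ hh hx.1.2⟩,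
      conj_mem_partKer_of_mem H _ hh hx.2⟩)
    (fun x hx => ⟨⟨conj' a a a e_aa x hx.1.1, conj' a c b e_ac x hx.2⟩, conj' a b c e_ab x hx.1.2⟩)
    (fun x hx => ⟨⟨conj' b c a e_bc x hx.2, conj' b b b e_bb x hx.1.2⟩, conj' b a c e_ba x hx.1.1⟩)
  let M : Subgroup Γ := Ma ⊔ Mb ⊔ Mc
  have hsup : ∀ g : Γ, (∀ x ∈ Ma, g * x * g⁻¹ ∈ M) → (∀ x ∈ Mb, g * x * g⁻¹ ∈ M) →
      (∀ x ∈ Mc, g * x * g⁻¹ ∈ M) → ∀ x ∈ M, g * x * g⁻¹ ∈ M := fun g h1 h2 h3 x hx =>
    (sup_le (sup_le (fun x hx => h1 x hx) (fun x hx => h2 x hx)) (fun x hx => h3 x hx) :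
      M ≤ M.comap (MulAut.conj g).toMonoidHom) hx
  have iA : Ma ≤ M := le_sup_left.trans le_sup_left
  have iB : Mb ≤ M := le_sup_right.trans le_sup_left
  have iC : Mc ≤ M := le_sup_right
  have hM : M.Normal := mkN M
    (fun h hh => hsup h (fun x hx => iA (conj_mem_partKer_of_mem H _ hh hx))
      (fun x hx => iB (conj_mem_partKer_of_mem H _ hh hx)) (fun x hx => iC (conj_mem_partKer_of_mem H _ hh hx)))
    (hsup a (fun x hx => iA (conj' a a a e_aa x hx)) (fun x hx => iC (conj' a b c e_ab x hx))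
      (fun x hx => iB (conj' a c b e_ac x hx)))
    (hsup b (fun x hx => iC (conj' b a c e_ba x hx)) (fun x hx => iB (conj' b b b e_bb x hx))
      (fun x hx => iA (conj' b c a e_bc x hx)))
  have hHM : H ≤ M := fun x hx => D.mem_of_commutator_mem (sup_le (sup_le (hsle a) (hsle b)) (hsle c)) hx hA
    (iA (D.commutator_mem_partKer ha ha1 hx)) (iB (D.commutator_mem_partKer hb hb1 hx))
  -- the intersection of two kernels
  have hinter : Mb ⊓ Mc ≤ Ma := by
    rintro d ⟨hdb, hdc⟩
    let π := QuotientGroup.mk' N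
    let f := a * b
    have e_fa : f * a * f⁻¹ = b := by
      show a * b * a * (a * b)⁻¹ = b
      rw [hbr]; group
    have e_fb : f * b * f⁻¹ = c := by
      show a * b * b * (a * b)⁻¹ = a * b * a
      rw [mul_inv_rev, hai, hbi, mul_assoc a b b, hb, mul_one, ← mul_assoc]
    have e_fc : f * c * f⁻¹ = a := by
      show a * b * (a * b * a) * (a * b)⁻¹ = a
      rw [hbr, mul_inv_rev, hai, hbi]
      calc a * b * (b * a * b) * (b * a) = a * (b * b) * a * (b * b) * a := by simp only [mul_assoc]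
        _ = a := by rw [hb, mul_one, mul_one, ha, one_mul]
    let d₁ := f * d * f⁻¹
    let d₂ := f * d₁ * f⁻¹
    have h1c : d₁ ∈ Mc := conj' f b c e_fb d hdb
    have h1a : d₁ ∈ Ma := conj' f c a e_fc d hdc
    have h2a : d₂ ∈ Ma := conj' f c a e_fc d₁ h1c
    have h2b : d₂ ∈ Mb := conj' f a b e_fa d₁ h1a
    have hda : ⁅d, a⁆ ∈ N := by
      have h1 := D.commutator_mem_partKer (V := V) ha ha1 (hsle b hdb)
      refine ⟨⟨h1, ?_⟩, ?_⟩
      · rw [commutatorElement_def, mul_assoc, mul_assoc, ← mul_assoc a]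
        exact mul_mem hdb (conj' a c b e_ac _ (inv_mem hdc))
      · rw [commutatorElement_def, mul_assoc, mul_assoc, ← mul_assoc a]
        exact mul_mem hdc (conj' a b c e_ab _ (inv_mem hdb))
    have hcl : ∀ s, ∀ x ∈ partKer (V := V) H (zpowers s), ∀ h ∈ H,
        ⁅x, h⁆ ∈ partKer (V := V) H (zpowers s) ∧ ⁅h, x⁆ ∈ partKer (V := V) H (zpowers s) := fun s x hx h hh =>
      ⟨by
        rw [commutatorElement_def, mul_assoc, mul_assoc, ← mul_assoc h]
        exact mul_mem hx (conj_mem_partKer_of_mem H _ hh (inv_mem hx)),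
      mul_mem (conj_mem_partKer_of_mem H _ hh hx) (inv_mem hx)⟩
    have hcomm : ∀ x y : Γ, ⁅x, y⁆ ∈ N → π x * π y = π y * π x := fun x y h =>
      commutatorElement_eq_one_iff_mul_comm.mp (by
        rw [← map_commutatorElement]; exact (QuotientGroup.eq_one_iff _).mpr h)
    have dH : d ∈ H := hsle b hdb
    have c01 : π d * π d₁ = π d₁ * π d := hcomm d d₁
      ⟨⟨(hcl a d₁ h1a d dH).2, (hcl b d hdb d₁ (hsle a h1a)).1⟩, (hcl c d hdc d₁ (hsle a h1a)).1⟩
    have c02 : π d * π d₂ = π d₂ * π d := hcomm d d₂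
      ⟨⟨(hcl a d₂ h2a d dH).2, (hcl b d hdb d₂ (hsle a h2a)).1⟩, (hcl c d hdc d₂ (hsle a h2a)).1⟩
    have c12 : π d₁ * π d₂ = π d₂ * π d₁ := hcomm d₁ d₂
      ⟨⟨(hcl a d₁ h1a d₂ (hsle a h2a)).1, (hcl b d₂ h2b d₁ (hsle a h1a)).2⟩,
        (hcl c d₁ h1c d₂ (hsle a h2a)).1⟩
    have pa : π a * π d = π d * π a := (hcomm d a hda).symm
    let x := d * d₁ * d₂
    have hxH : x ∈ H := mul_mem (mul_mem dH (hsle a h1a)) (hsle a h2a)
    have pf3 : f * d₂ * f⁻¹ = d := by
      show f * (f * (f * d * f⁻¹) * f⁻¹) * f⁻¹ = d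
      have hf3 : f * f * f = 1 := by
        show a * b * (a * b) * (a * b) = 1
        calc a * b * (a * b) * (a * b) = (a * b * a) * (b * a * b) := by simp only [mul_assoc]
          _ = 1 := by rw [← hbr]; exact hc
      calc f * (f * (f * d * f⁻¹) * f⁻¹) * f⁻¹ = (f * f * f) * d * (f * f * f)⁻¹ := by group
        _ = d := by rw [hf3]; group
    have xf : π f * π x = π x * π f := by
      have h : π (f * x * f⁻¹) = π x := by
        have e : f * x * f⁻¹ = d₁ * d₂ * d := by
          calc f * x * f⁻¹ = (f * d * f⁻¹) * (f * d₁ * f⁻¹) * (f * d₂ * f⁻¹) := by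
                show f * (d * d₁ * d₂) * f⁻¹ = _; group
            _ = d₁ * d₂ * d := by rw [pf3]
        rw [e]
        simp only [x, map_mul]
        rw [mul_assoc, ← c02, ← mul_assoc, ← c01]
      rw [map_mul, map_mul, map_inv] at h
      exact mul_inv_eq_iff_eq_mul.mp h
    have xa : π a * π x = π x * π a := by
      have hd12 : π (a * d₁ * a⁻¹) = π d₂ := by
        have e : a * d₁ * a⁻¹ = f⁻¹ * (a * d * a⁻¹) * f := by
          show a * (a * b * d * (a * b)⁻¹) * a⁻¹ = (a * b)⁻¹ * (a * d * a⁻¹) * (a * b)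
          rw [mul_inv_rev, hai, hbi]
          calc a * (a * b * d * (b * a)) * a = (a * a) * b * d * b * (a * a) := by simp only [mul_assoc]
            _ = b * (a * a) * d * (a * a) * b := by rw [ha]; simp only [one_mul, mul_one, mul_assoc]
            _ = b * a * (a * d * a) * (a * b) := by simp only [mul_assoc]
        have e2 : d₂ = f⁻¹ * d * f := by
          calc d₂ = f⁻¹ * (f * d₂ * f⁻¹) * f := by group
            _ = f⁻¹ * d * f := by rw [pf3]
        rw [e, e2]
        simp only [map_mul, map_inv]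
        rw [pa, mul_inv_cancel_right]
      have hd21 : π (a * d₂ * a⁻¹) = π d₁ := by
        simp only [map_mul, map_inv] at hd12 ⊢
        rw [← hd12, show (π a)⁻¹ = π a by rw [← map_inv, hai]]
        calc π a * (π a * π d₁ * π a) * π a = (π a * π a) * π d₁ * (π a * π a) := by simp only [mul_assoc]
          _ = π d₁ := by rw [← map_mul, ha, map_one, one_mul, mul_one]
      have h : π (a * x * a⁻¹) = π x := by
        calc π (a * x * a⁻¹) = π (a * d * a⁻¹) * π (a * d₁ * a⁻¹) * π (a * d₂ * a⁻¹) := by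
              rw [← map_mul, ← map_mul]; congr 1; show a * (d * d₁ * d₂) * a⁻¹ = _; group
          _ = π d * π d₂ * π d₁ := by
            rw [hd12, hd21, map_mul, map_mul, map_inv, pa, mul_inv_cancel_right]
          _ = π x := by simp only [x, map_mul]; rw [mul_assoc, ← c12, ← mul_assoc]
      rw [map_mul, map_mul, map_inv] at h
      exact mul_inv_eq_iff_eq_mul.mp h
    have hmem : ∀ g, π g * π x = π x * π g → ⁅x, g⁆ ∈ N := fun g h => by
      rw [← QuotientGroup.eq_one_iff]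
      show π ⁅x, g⁆ = 1
      rw [map_commutatorElement]
      exact commutatorElement_eq_one_iff_mul_comm.mpr h.symm
    have hA' : A ≤ closure {a, f} := hA.trans ((closure_le _).mpr (by
      rintro g (rfl | rfl)
      · exact subset_closure (Set.mem_insert _ _)
      · have : g = a⁻¹ * (a * g) := by group
        rw [this]
        exact mul_mem (inv_mem (subset_closure (Set.mem_insert _ _)))
          (subset_closure (Set.mem_insert_of_mem _ rfl))))
    have hxN : x ∈ N :=
      D.mem_of_commutator_mem ((inf_le_left.trans inf_le_left).trans (hsle a)) hxH hA' (hmem a xa) (hmem f xf)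
    have : d = x * d₂⁻¹ * d₁⁻¹ := by simp [x]
    rw [this]
    exact mul_mem (mul_mem hxN.1.1 (inv_mem h2a)) (inv_mem h1a)
  -- the quotient by the kernel of `a`
  let Na : Subgroup H := Ma.subgroupOf H
  have hNa : Na.Normal := ⟨fun x hx g => conj_mem_partKer_of_mem H _ g.2 hx⟩
  let ψ := QuotientGroup.mk' Na
  let Ib := (Mb.subgroupOf H).map ψ
  let Ic := (Mc.subgroupOf H).map ψ
  have hswap : ∀ (x : Γ) (hx : x ∈ H) (hx' : a * x * a⁻¹ ∈ H), ψ ⟨a * x * a⁻¹, hx'⟩ = ψ ⟨x, hx⟩ := by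
    intro x hx hx'
    refine (QuotientGroup.eq).mpr ?_
    show ((⟨a * x * a⁻¹, hx'⟩⁻¹ * ⟨x, hx⟩ : H) : Γ) ∈ Ma
    have h := conj_mem_partKer_of_mem H (zpowers a) (H.inv_mem hx) (D.commutator_mem_partKer (V := V) ha ha1 hx)
    rw [inv_inv] at h
    convert inv_mem (inv_mem h) using 1
    simp [commutatorElement_def, mul_assoc]
  have hbc : Ib ≤ Ic := by
    rintro _ ⟨x, hx, rfl⟩
    have hx' : a * x * a⁻¹ ∈ Mc := conj' a b c e_ab _ hx
    exact ⟨⟨_, hsle c hx'⟩, hx', hswap x x.2 _⟩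
  have hcb : Ic ≤ Ib := by
    rintro _ ⟨x, hx, rfl⟩
    have hx' : a * x * a⁻¹ ∈ Mb := conj' a c b e_ac _ hx
    exact ⟨⟨_, hsle b hx'⟩, hx', hswap x x.2 _⟩
  have htop : ∀ x : H, ψ x ∈ Ib ⊔ Ic := by
    intro x
    have h : M ≤ ((Ib ⊔ Ic).comap ψ).map H.subtype := sup_le (sup_le
      (fun y hy => ⟨⟨y, hsle a hy⟩, by
        show ψ ⟨y, hsle a hy⟩ ∈ Ib ⊔ Ic
        rw [show ψ ⟨y, hsle a hy⟩ = 1 from (QuotientGroup.eq_one_iff _).mpr hy]
        exact one_mem _, rfl⟩)
      (fun y hy => ⟨⟨y, hsle b hy⟩, mem_sup_left (mem_map_of_mem ψ (show (⟨y, hsle b hy⟩ : H) ∈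
        Mb.subgroupOf H from hy)), rfl⟩))
      (fun y hy => ⟨⟨y, hsle c hy⟩, mem_sup_right (mem_map_of_mem ψ (show (⟨y, hsle c hy⟩ : H) ∈
        Mc.subgroupOf H from hy)), rfl⟩)
    obtain ⟨y, hy, he⟩ := h (hHM x.2)
    rw [← H.subtype_injective he]; exact hy
  rw [le_antisymm hbc hcb, sup_idem] at htop
  rw [commutator_le]
  intro x hx y hy
  obtain ⟨y₁, hy₁, hye⟩ := htop ⟨y, hy⟩
  obtain ⟨x₁, hx₁, hxe⟩ := hcb (htop ⟨x, hx⟩)
  have h2 : (⁅x₁, y₁⁆ : H) ∈ Na := by
    show ((⁅x₁, y₁⁆ : H) : Γ) ∈ Ma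
    have hx₁' : (x₁ : Γ) ∈ Mb := hx₁
    have hy₁' : (y₁ : Γ) ∈ Mc := hy₁
    simp only [commutatorElement_def, Subgroup.coe_mul, Subgroup.coe_inv]
    refine hinter (mem_inf.mpr ⟨?_, mul_mem (conj_mem_partKer_of_mem H _ x₁.2 hy₁') (inv_mem hy₁')⟩)
    rw [mul_assoc, mul_assoc, ← mul_assoc (y₁ : Γ)]
    exact mul_mem hx₁' (conj_mem_partKer_of_mem H _ y₁.2 (inv_mem hx₁'))
  have h3 : ψ ⁅(⟨x, hx⟩ : H), ⟨y, hy⟩⁆ = 1 := by
    rw [map_commutatorElement, ← hxe, ← hye, ← map_commutatorElement]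
    exact (QuotientGroup.eq_one_iff _).mpr h2
  have h4 : (⁅(⟨x, hx⟩ : H), ⟨y, hy⟩⁆ : H) ∈ Na := (QuotientGroup.eq_one_iff _).mp h3
  exact h4

/-- The core for `S₃`. -/
theorem CoreData.commute_of_s3 [Finite V] (D : CoreData V H A l) {f t : Γ} (hfA : f ∈ A) (htA : t ∈ A)
    (hf : orderOf f = 3) (ht : t * t = 1) (ht1 : t ≠ 1) (htf : t * f * t⁻¹ = f⁻¹)
    (hinv : ∀ a ∈ A, a ∈ zpowers f ∨ (a * a = 1 ∧ a ≠ 1 ∧ A ≤ closure {a, f * a * f⁻¹})) :
    ∀ x ∈ H, ∀ y ∈ H, x * y = y * x := by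
  classical
  have := D.normal
  have := D.solv
  have h23 : (2 ∣ Nat.card A) ∧ 3 ∣ Nat.card A := by
    constructor
    · rw [← orderOf_eq_prime (p := 2) (by rw [pow_two, ht]) ht1, ← Nat.card_zpowers]
      exact card_dvd_of_le (zpowers_le.mpr htA)
    · rw [← hf, ← Nat.card_zpowers]
      exact card_dvd_of_le (zpowers_le.mpr hfA)
  have hf3 : f ^ 3 = 1 := hf ▸ pow_orderOf_eq_one f
  have hAnF : A ≤ normalizer (zpowers f : Set Γ) := by
    intro a ha
    rcases hinv a ha with h | ⟨ha2, ha1, hgen⟩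
    · exact le_normalizer h
    · have ht' : t ∈ normalizer (zpowers f : Set Γ) := by
        refine mem_normalizer_of_conj_smul_eq (eq_of_le_of_card_ge ?_ (card_conj_smul t _).ge)
        intro z hz
        rw [mem_conj_smul, mem_zpowers_iff] at hz
        obtain ⟨i, hi⟩ := hz
        have : z = t * f ^ i * t⁻¹ := by rw [hi]; group
        rw [this, ← conj_zpow, htf]
        exact zpow_mem (inv_mem (mem_zpowers f)) i
      rcases hinv t htA with h | ⟨-, -, hg⟩
      · exfalso
        have h2 := orderOf_dvd_of_mem_zpowers h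
        rw [hf, orderOf_eq_prime (p := 2) (by rw [pow_two, ht]) ht1] at h2
        omega
      · refine (closure_le _).mpr ?_ (hg ha)
        rintro g (rfl | rfl)
        · exact ht'
        · exact mul_mem (mul_mem (le_normalizer (mem_zpowers f)) ht') (inv_mem (le_normalizer (mem_zpowers f)))
  let MF := partKer (V := V) H (zpowers f)
  have hMFn : MF.Normal := by
    rw [← normalizer_eq_top_iff, eq_top_iff, ← D.sup]
    have hfin : ∀ g : Γ, (∀ x ∈ MF, g * x * g⁻¹ ∈ MF) → g ∈ normalizer (MF : Set Γ) := fun g hg => by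
      refine mem_normalizer_of_conj_smul_eq (eq_of_le_of_card_ge ?_ (card_conj_smul g MF).ge)
      intro x hx
      rw [mem_conj_smul] at hx
      simpa [mul_assoc] using hg _ hx
    exact sup_le (fun h hh => hfin h fun x hx => conj_mem_partKer_of_mem H _ hh hx)
      (fun a ha => hfin a fun x hx => conj_mem_partKer_normalizer H _ (hAnF ha) hx)
  have hMFH : MF ≤ H := inf_le_left
  have hbot : MF ⊓ ⁅H, H⁆ = ⊥ := by
    refine D.eq_bot_of_le_partKer _ (inf_le_left.trans hMFH) fun B hBA hBp => ?_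
    haveI := Fact.mk hBp
    have hBn : Nontrivial B := Finite.one_lt_card_iff_nontrivial.mp hBp.one_lt
    obtain ⟨g, hg1⟩ := exists_ne (1 : B)
    have hBg : B = zpowers (g : Γ) := by
      refine (eq_of_le_of_card_ge (zpowers_le.mpr g.2) (le_of_eq ?_)).symm
      rw [Nat.card_zpowers, Subgroup.orderOf_coe,
        ((Nat.dvd_prime hBp).mp (_root_.orderOf_dvd_natCard g)).resolve_left (by simpa using hg1)]
    rcases hinv g (hBA g.2) with h | ⟨hg2, hg1', hgen⟩
    · refine le_trans inf_le_left (le_of_eq ?_)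
      rw [hBg]
      show partKer (V := V) H (zpowers f) = partKer (V := V) H (zpowers (g : Γ))
      congr 1
      refine (eq_of_le_of_card_ge (zpowers_le.mpr h) (le_of_eq ?_)).symm
      rw [Nat.card_zpowers, Nat.card_zpowers, hf]
      have h2 := orderOf_dvd_of_mem_zpowers h
      rw [hf] at h2
      exact (((Nat.dvd_prime Nat.prime_three).mp h2).resolve_left fun e =>
        hg1 (Subtype.ext (orderOf_eq_one_iff.mp e))).symm
    · rw [hBg]
      let b := f * (g : Γ) * f⁻¹
      have hbA : b ∈ A := mul_mem (mul_mem hfA (hBA g.2)) (inv_mem hfA)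
      have hgf : (g : Γ) * f * (g : Γ) = f⁻¹ := by
        have hn : (g : Γ) * f * (g : Γ)⁻¹ ∈ zpowers f :=
          (mem_normalizer_iff.mp (hAnF (hBA g.2)) f).mp (mem_zpowers f)
        rw [inv_eq_of_mul_eq_one_right hg2] at hn
        rcases hinv _ (mul_mem hfA (hBA g.2)) with h | ⟨h, -, -⟩
        · exfalso
          have h' : (g : Γ) ∈ zpowers f := by simpa using mul_mem (inv_mem (mem_zpowers f)) h
          have h2 := orderOf_dvd_of_mem_zpowers h'
          rw [hf, orderOf_eq_prime (p := 2) (by rw [pow_two, hg2]) hg1'] at h2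
          omega
        · exact eq_inv_of_mul_eq_one_right (by simpa [mul_assoc] using h)
      refine le_trans inf_le_right (D.commutator_le_partKer_involution (hBA g.2) hbA hg2 hg1' ?_ ?_ ?_ hgen)
      · show f * (g : Γ) * f⁻¹ * (f * (g : Γ) * f⁻¹) = 1
        rw [conj_mul, hg2, mul_one, mul_inv_cancel]
      · intro e
        exact hg1' (by rwa [mul_inv_eq_one, mul_eq_left] at e)
      · have e1 : (g : Γ) * f⁻¹ * (g : Γ) = f := by
          calc (g : Γ) * f⁻¹ * (g : Γ) = (g * g : Γ) * f * (g * g : Γ) := by rw [← hgf]; simp only [mul_assoc]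
            _ = f := by rw [hg2, one_mul, mul_one]
        have hff : f * f = f⁻¹ := eq_inv_of_mul_eq_one_left (by rw [← hf3]; simp [pow_succ])
        have e0 : (g : Γ) * f = f⁻¹ * (g : Γ) := by
          rw [← hgf, mul_assoc, hg2, mul_one]
        have e0' : (g : Γ) * f⁻¹ = f * (g : Γ) := by
          conv_rhs => rw [← e1, mul_assoc, hg2, mul_one]
        have hb' : b = f * f * (g : Γ) := by
          show f * (g : Γ) * f⁻¹ = _
          rw [mul_assoc, e0', ← mul_assoc]
        have hb'' : b = f⁻¹ * (g : Γ) := by rw [hb', hff]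
        show (g : Γ) * b * g = b * g * b
        calc (g : Γ) * b * g = (g : Γ) * f⁻¹ * ((g : Γ) * g) := by rw [hb'']; simp only [mul_assoc]
          _ = f * g := by rw [hg2, mul_one, e0']
          _ = f⁻¹ * f⁻¹ * (g : Γ) := by rw [← mul_inv_rev, hff, inv_inv]
          _ = f⁻¹ * ((g : Γ) * g) * (f⁻¹ * g) := by rw [hg2, mul_one, ← mul_assoc]
          _ = b * g * b := by rw [hb'']; simp only [mul_assoc]
  have hMFc : ∀ m ∈ MF, ∀ h ∈ H, m * h = h * m := fun m hm h hh => by
    have h1 : ⁅m, h⁆ ∈ MF ⊓ ⁅H, H⁆ := ⟨by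
      rw [commutatorElement_def, mul_assoc, mul_assoc, ← mul_assoc h]
      exact mul_mem hm (hMFn.conj_mem _ (inv_mem hm) h), commutator_mem_commutator (hMFH hm) hh⟩
    rw [hbot, mem_bot] at h1
    exact commutatorElement_eq_one_iff_mul_comm.mp h1
  have conjH : ∀ h ∈ H, f * h * f⁻¹ ∈ H := fun h hh => (inferInstance : H.Normal).conj_mem h hh f
  let S : Subgroup Γ :=
    { carrier := {h | h ∈ H ∧ h⁻¹ * (f * h * f⁻¹) ∈ MF}
      one_mem' := ⟨H.one_mem, by simp⟩
      mul_mem' := fun {x y} hx hy => ⟨H.mul_mem hx.1 hy.1, by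
        have e : (x * y)⁻¹ * (f * (x * y) * f⁻¹) =
            x⁻¹ * (f * x * f⁻¹) * (y⁻¹ * (f * y * f⁻¹)) := by
          calc (x * y)⁻¹ * (f * (x * y) * f⁻¹)
              = y⁻¹ * (x⁻¹ * (f * x * f⁻¹)) * (f * y * f⁻¹) := by group
            _ = x⁻¹ * (f * x * f⁻¹) * y⁻¹ * (f * y * f⁻¹) := by rw [hMFc _ hx.2 _ (inv_mem hy.1)]
            _ = _ := by group
        rw [e]; exact mul_mem hx.2 hy.2⟩
      inv_mem' := fun {x} hx => ⟨H.inv_mem hx.1, by
        have h1 := hMFc _ (inv_mem hx.2) _ hx.1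
        have e : x⁻¹⁻¹ * (f * x⁻¹ * f⁻¹) = (x⁻¹ * (f * x * f⁻¹))⁻¹ := by
          calc x⁻¹⁻¹ * (f * x⁻¹ * f⁻¹) = x * ((x⁻¹ * (f * x * f⁻¹))⁻¹) * x⁻¹ := by group
            _ = _ := by rw [← h1, mul_inv_cancel_right]
        rw [e]; exact inv_mem hx.2⟩ }
  let FH : Subgroup Γ := (fittingSubgroup H).map H.subtype
  have hFS : FH ≤ S := by
    show (fittingSubgroup H).map H.subtype ≤ S
    rw [fittingSubgroup_eq_iSup_pCore, Subgroup.map_iSup]
    refine iSup_le fun q => ?_
    intro x hx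
    refine ⟨map_subtype_le _ hx, (mem_partKer H _).mpr ⟨H.mul_mem (H.inv_mem (map_subtype_le _ hx))
      (conjH x (map_subtype_le _ hx)), ?_⟩⟩
    by_cases hx1 : x = 1
    · intro v _; simp [hx1]
    haveI := Fact.mk q.2
    let Q : Subgroup Γ := (pCore (q : ℕ) H).map H.subtype
    have hQp : IsPGroup (q : ℕ) Q := (isPGroup_pCore (G := H) (q : ℕ)).map _
    have hQn : Q.Normal := inferInstance
    obtain ⟨i, hi⟩ := IsPGroup.iff_card.mp hQp
    have hQ1 : Q ≠ ⊥ := fun h => hx1 (mem_bot.mp (h ▸ hx : x ∈ (⊥ : Subgroup Γ)))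
    have hqH : (q : ℕ) ∣ Nat.card H := by
      refine (dvd_pow_self (q : ℕ) ?_).trans (hi ▸ card_dvd_of_le (map_subtype_le _))
      rintro rfl
      exact hQ1 (eq_bot_of_card_eq Q (by simpa using hi))
    have hq : ∀ n : ℕ, n.Prime → n ∣ Nat.card A → (q : ℕ) ≠ n := fun n hn hd e =>
      hn.ne_one (Nat.eq_one_of_dvd_coprimes D.cop hd (e ▸ hqH))
    have hl3 : l ≠ 3 := fun e => by
      have := Nat.eq_one_of_dvd_coprimes D.hlA dvd_rfl (e ▸ h23.2); omega
    have hlq : l ≠ (q : ℕ) := fun e => hQ1 (D.core Q hQn (map_subtype_le _) (e ▸ hQp))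
    have key := commute_of_cycProd_eq_one (Γ := Γ) (V := V) D.hl Nat.prime_three q.2 (hq 3 Nat.prime_three h23.2)
      hl3 hlq (Or.inl (hq 2 Nat.prime_two h23.1)) hQp (by rw [normalizer_eq_top]; exact mem_top f) hf3
      (fpfPart H (zpowers f)) (fun v _ => D.hVl v)
      (fun y hy v hv => smul_fpfPart_of_mem H _ (map_subtype_le _ hy) hv)
      (fun v hv => smul_fpfPart_normalizer H _ (le_normalizer (mem_zpowers f)) hv)
      (fun v hv => by
        have h := orbProd_eq_one_of_mem_fpfPart H _ hv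
        rwa [orbProd_zpowers, hf] at h)
    intro v hv
    have hv' : f⁻¹ • v ∈ fpfPart (V := V) H (zpowers f) :=
      smul_fpfPart_normalizer H _ (inv_mem (le_normalizer (mem_zpowers f))) hv
    rw [mul_smul, mul_smul, mul_smul, key x hx _ hv', smul_inv_smul, inv_smul_smul]
  -- `f` centralises `H` modulo the Fitting subgroup
  have hFn : FH.Normal := inferInstance
  have hFf : ∀ h ∈ H, h⁻¹ * (f * h * f⁻¹) ∈ FH := by
    intro h hh
    refine ⟨⟨_, H.mul_mem (H.inv_mem hh) (conjH h hh)⟩, centralizer_fittingSubgroup_le ?_, rfl⟩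
    rw [mem_centralizer_iff]
    intro x hx
    apply Subtype.ext
    show (x : Γ) * (h⁻¹ * (f * h * f⁻¹)) = h⁻¹ * (f * h * f⁻¹) * (x : Γ)
    have hxF : (x : Γ) ∈ FH := mem_map_of_mem _ hx
    let y := h * (x : Γ) * h⁻¹
    let c := y * (x : Γ)⁻¹
    have hcF : c ∈ FH := mul_mem (hFn.conj_mem _ hxF h) (inv_mem hxF)
    have hcD : c ∈ ⁅H, H⁆ := by
      show h * (x : Γ) * h⁻¹ * (x : Γ)⁻¹ ∈ _
      exact commutator_mem_commutator hh x.2
    have hcf : f * c * f⁻¹ = c := by
      have h1 : c⁻¹ * (f * c * f⁻¹) ∈ MF ⊓ ⁅H, H⁆ :=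
        mem_inf.mpr ⟨(hFS hcF).2,
          mul_mem (inv_mem hcD) ((inferInstance : (⁅H, H⁆ : Subgroup Γ).Normal).conj_mem _ hcD f)⟩
      rw [hbot, mem_bot, inv_mul_eq_one] at h1
      exact h1.symm
    let z := (x : Γ)⁻¹ * (f * x * f⁻¹)
    have hz : z ∈ MF := (hFS hxF).2
    let g := f * h * f⁻¹
    have h2 : g * (x : Γ) * g⁻¹ = y := by
      apply mul_right_cancel (b := z)
      calc g * (x : Γ) * g⁻¹ * z = g * (x : Γ) * (g⁻¹ * z) := by group
        _ = g * (x : Γ) * (z * g⁻¹) := by rw [hMFc z hz _ (inv_mem (conjH h hh))]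
        _ = f * y * f⁻¹ := by simp only [g, z, y]; group
        _ = (f * c * f⁻¹) * (f * x * f⁻¹) := by simp only [c]; group
        _ = y * z := by rw [hcf]; simp only [c, z]; group
    calc (x : Γ) * (h⁻¹ * g) = h⁻¹ * y * g := by simp only [y]; group
      _ = h⁻¹ * g * (x : Γ) := by rw [← h2]; group
  let C : Subgroup Γ := H ⊓ centralizer {f}
  have hlift : ∀ N : Subgroup Γ, N.Normal → N ≤ H → ∀ h ∈ H, h⁻¹ * (f * h * f⁻¹) ∈ N →
      ∃ c ∈ C, h⁻¹ * c ∈ N := by
    intro N hNn hNH h hh hN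
    obtain ⟨c, hc, hcn⟩ := exists_centralizer_mem_coset (A := zpowers f) (N := N) (k := h)
      (by rw [normalizer_eq_top]; exact le_top)
      ((D.cop.coprime_dvd_left (card_dvd_of_le (zpowers_le.mpr hfA))).coprime_dvd_right (card_dvd_of_le hNH))
      (Or.inl (Coprime.isSolvable_of_le (zpowers_le.mpr hfA) D.asolv)) fun b hb => by
        have hfix : zpowers f ≤ (centralizer {(QuotientGroup.mk' N) h}).comap (QuotientGroup.mk' N) := by
          rw [zpowers_le, mem_comap, mem_centralizer_singleton_iff]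
          have := (QuotientGroup.eq_one_iff (N := N) _).mpr hN
          change (QuotientGroup.mk' N) (h⁻¹ * (f * h * f⁻¹)) = 1 at this
          simp only [map_mul, map_inv] at this
          rw [inv_mul_eq_one] at this
          exact (mul_inv_eq_iff_eq_mul.mp this.symm)
        rw [← QuotientGroup.eq_one_iff]
        show (QuotientGroup.mk' N) (h⁻¹ * (b * h * b⁻¹)) = 1
        simp only [map_mul, map_inv]
        rw [mem_centralizer_singleton_iff.mp (hfix hb), mul_inv_cancel_right, inv_mul_cancel]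
    exact ⟨c, ⟨by simpa using H.mul_mem hh (hNH hcn),
      mem_centralizer_singleton_iff.mpr (mem_centralizer_iff.mp hc f (mem_zpowers f)).symm⟩, hcn⟩
  have hHS : ∀ h ∈ H, h ∈ S := by
    intro h hh
    obtain ⟨c, hc, hcn⟩ := hlift FH hFn (map_subtype_le _) h hh (hFf h hh)
    have hcS : c ∈ S := ⟨hc.1, by
      have : c⁻¹ * (f * c * f⁻¹) = 1 := by
        rw [(mem_centralizer_singleton_iff.mp hc.2).symm, mul_inv_cancel_right, inv_mul_cancel]
      rw [this]; exact one_mem _⟩
    simpa using mul_mem hcS (inv_mem (hFS hcn))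
  have hCinv : ∀ c ∈ C, t * c * t⁻¹ = c⁻¹ := by
    intro c hc
    have htC : t ∈ normalizer (C : Set Γ) := by
      refine mem_normalizer_of_conj_smul_eq (eq_of_le_of_card_ge ?_ (card_conj_smul t C).ge)
      intro z hz
      rw [mem_conj_smul] at hz
      have e : z = t * (t⁻¹ * z * t) * t⁻¹ := by group
      rw [e]
      refine ⟨(inferInstance : H.Normal).conj_mem _ hz.1 t, mem_centralizer_singleton_iff.mpr ?_⟩
      have h1 := mem_centralizer_singleton_iff.mp hz.2
      have hf' : f = t * f⁻¹ * t⁻¹ := by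
        conv_lhs => rw [← inv_inv f, ← htf]
        group
      generalize t⁻¹ * z * t = w at h1 ⊢
      have h2 : w * f⁻¹ = f⁻¹ * w := (Commute.inv_right h1).eq
      rw [hf', conj_mul, conj_mul, h2]
    obtain ⟨x, hx, hxc⟩ := sub_surjective htC (fun x hx hxt => by
      have : x ∈ H ⊓ centralizer (A : Set Γ) := ⟨hx.1, mem_centralizer_iff.mpr fun a ha => by
        rcases hinv t htA with h | ⟨-, -, hg⟩
        · exfalso
          have h2 := orderOf_dvd_of_mem_zpowers h
          rw [hf, orderOf_eq_prime (p := 2) (by rw [pow_two, ht]) ht1] at h2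
          omega
        · have hle : closure {t, f * t * f⁻¹} ≤ centralizer {x} := by
            have hfx : f ∈ centralizer {x} :=
              mem_centralizer_singleton_iff.mpr (mem_centralizer_singleton_iff.mp hx.2).symm
            have htx : t ∈ centralizer {x} := mem_centralizer_singleton_iff.mpr hxt
            rw [closure_le]
            rintro g (rfl | rfl)
            · exact htx
            · exact mul_mem (mul_mem hfx htx) (inv_mem hfx)
          exact mem_centralizer_singleton_iff.mp (hle (hg ha))⟩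
      rw [D.fpf, mem_bot] at this
      exact this) hc
    rw [← hxc]
    have htt : t⁻¹ = t := inv_eq_of_mul_eq_one_right ht
    rw [htt]
    calc t * (x⁻¹ * (t * x * t)) * t = t * x⁻¹ * t * x * (t * t) := by simp only [mul_assoc]
      _ = (x⁻¹ * (t * x * t))⁻¹ := by rw [ht, mul_one]; simp only [mul_inv_rev, htt, inv_inv, mul_assoc]
  intro x hx y hy
  obtain ⟨c, hc, hcm⟩ := hlift MF hMFn hMFH x hx (hHS x hx).2
  obtain ⟨d, hd, hdm⟩ := hlift MF hMFn hMFH y hy (hHS y hy).2
  have hcd : c * d = d * c := by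
    have h1 := hCinv (c * d) (mul_mem hc hd)
    rw [← conj_mul, hCinv c hc, hCinv d hd, mul_inv_rev] at h1
    have := congrArg (fun z => z⁻¹) h1
    simpa using this.symm
  have e1 : x = c * (x⁻¹ * c)⁻¹ := by group
  have e2 : y = d * (y⁻¹ * d)⁻¹ := by group
  rw [e1, e2]
  have h1 : Commute (x⁻¹ * c)⁻¹ d := hMFc _ (inv_mem hcm) d hd.1
  have h2 : Commute (x⁻¹ * c)⁻¹ (y⁻¹ * d)⁻¹ := hMFc _ (inv_mem hcm) _ (H.inv_mem (hMFH hdm))
  have h3 : Commute c (y⁻¹ * d)⁻¹ := (hMFc _ (inv_mem hdm) c hc.1).symm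
  exact ((Commute.mul_left (Commute.mul_right hcd h3) (Commute.mul_right h1 h2))).eq

end Cfsg.Agent.Lib.FitHeight
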