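import Cfsg.Agent.Lib.FitHeight.Reduce
import Mathlib.GroupTheory.SemidirectProduct

/-! Automorphism groups as settings for the Fitting height reduction, and chains. -/

set_option autoImplicit false

namespace Cfsg.Agent.Lib.FitHeight

open Subgroup SemidirectProduct Cfsg.Agent.Lib.Coprime

universe u

variable {G A : Type u} [Group G] [Group A] (φ : A →* MulAut G)

theorem range_inl_sup_range_inr : (inl : G →* G ⋊[φ] A).range ⊔ (inr : A →* G ⋊[φ] A).range = ⊤ :=
  eq_top_iff.mpr fun x _ => by
    rw [← inl_left_mul_inr_right x]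
    exact mul_mem (mem_sup_left ⟨_, rfl⟩) (mem_sup_right ⟨_, rfl⟩)

theorem inf_centralizer_range (hfpf : ∀ g : G, (∀ a : A, φ a g = g) → g = 1) :
    (inl : G →* G ⋊[φ] A).range ⊓ centralizer ((inr : A →* G ⋊[φ] A).range : Set (G ⋊[φ] A)) = ⊥ := by
  refine (eq_bot_iff_forall _).mpr ?_
  rintro _ ⟨⟨g, rfl⟩, hc⟩
  rw [hfpf g fun a => inl_injective (φ := φ) ?_, map_one]
  rw [inl_aut, mem_centralizer_iff.mp hc (inr a) ⟨a, rfl⟩, mul_assoc, ← map_mul, mul_inv_cancel,
    map_one, mul_one]

theorem setting_semidirect {P : ∀ (A : Type u) [Group A], Prop}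
    (hP : ∀ {A B : Type u} [Group A] [Group B], (A ≃* B) → P A → P B) [Finite G] [Finite A]
    [Group.IsSolvable G] [Group.IsSolvable A] (hA : P A)
    (hcop : (Nat.card A).Coprime (Nat.card G)) (hfpf : ∀ g : G, (∀ a : A, φ a g = g) → g = 1) :
    Setting P (inl : G →* G ⋊[φ] A).range (inr : A →* G ⋊[φ] A).range where
  normal := range_inl_eq_ker_rightHom (φ := φ) ▸ inferInstance
  sup := range_inl_sup_range_inr φ
  solv := Group.isSolvable_of_surjective (inl : G →* G ⋊[φ] A).rangeRestrict_surjective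
  hA := hP (MonoidHom.ofInjective inr_injective) hA
  hAsolv := Group.isSolvable_of_surjective (inr : A →* G ⋊[φ] A).rangeRestrict_surjective
  cop := by
    rwa [← Nat.card_congr (MonoidHom.ofInjective (inr_injective (φ := φ))).toEquiv,
      ← Nat.card_congr (MonoidHom.ofInjective (inl_injective (φ := φ))).toEquiv]
  fpf := inf_centralizer_range φ hfpf

theorem isNilpotent_lcs_of_range {k : ℕ}
    (h : Group.IsNilpotent ((inl : G →* G ⋊[φ] A).range.lowerCentralSeries k : Subgroup (G ⋊[φ] A))) :
    Group.IsNilpotent ((⊤ : Subgroup G).lowerCentralSeries k) := by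
  rw [MonoidHom.range_eq_map, ← map_lowerCentralSeries] at h
  exact nil_of_equiv h (equivMapOfInjective _ _ inl_injective).symm

end Cfsg.Agent.Lib.FitHeight
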