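import Cfsg.Agent.Lib.FitHeight.Reduce
import Cfsg.Agent.Lib.FitHeight.WardCore
import Mathlib.GroupTheory.SemidirectProduct

/-! Ward's theorem: an elementary abelian operator group of order `p²` without fixed points forces
Fitting height at most two. -/

set_option autoImplicit false

namespace Cfsg.Agent.Lib.FitHeight

open scoped Pointwise commutatorElement IsMulCommutative
open Subgroup Cfsg.Agent.Lib.Coprime Cfsg.Agent.Lib.Hall

universe u

/-- Elementary abelian of order `p²`. -/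
def IsElemSq (p : ℕ) (A : Type u) [Group A] : Prop :=
  (∀ a b : A, a * b = b * a) ∧ (∀ a : A, a ^ p = 1) ∧ Nat.card A = p ^ 2

theorem isElemSq_equiv (p : ℕ) {A B : Type u} [Group A] [Group B] (e : A ≃* B) (h : IsElemSq p A) :
    IsElemSq p B := by
  obtain ⟨h1, h2, h3⟩ := h
  refine ⟨fun a b => ?_, fun a => ?_, ?_⟩
  · rw [← e.apply_symm_apply a, ← e.apply_symm_apply b, ← map_mul, h1, map_mul]
  · rw [← e.apply_symm_apply a, ← map_pow, h2, map_one]
  · rw [← h3]; exact Nat.card_congr e.symm.toEquiv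

/-- Elements of coprime prime power order centralising a nonidentity operator commute. -/
theorem commute_in_centralizer {Γ : Type u} [Group Γ] [Finite Γ] {H A : Subgroup Γ} {p : ℕ}
    (hp : p.Prime) [H.Normal] (hAc : ∀ a ∈ A, ∀ b ∈ A, a * b = b * a) (hexp : ∀ a ∈ A, a ^ p = 1)
    (hcard : Nat.card A = p ^ 2) (hfpf : H ⊓ centralizer (A : Set Γ) = ⊥) {a : Γ} (ha : a ∈ A)
    (ha1 : a ≠ 1) {x y : Γ} (hx : x ∈ H) (hy : y ∈ H) (hxa : x * a = a * x) (hya : y * a = a * y)
    (hco : (orderOf x).Coprime (orderOf y)) : x * y = y * x := by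
  have := Fact.mk hp
  have hlt : ¬ A ≤ zpowers a := fun h => by
    have h1 := card_le_of_le h
    rw [hcard, Nat.card_zpowers, orderOf_eq_prime (hexp a ha) ha1] at h1
    have : p * p ≤ p := by rwa [pow_two] at h1
    have := hp.two_le
    nlinarith
  obtain ⟨b, hb, hba⟩ := SetLike.not_le_iff_exists.mp hlt
  let C : Subgroup Γ := H ⊓ centralizer {a}
  have hbC : ∀ z ∈ C, b * z * b⁻¹ ∈ C := fun z hz => ⟨(inferInstance : H.Normal).conj_mem z hz.1 b, by
    refine mem_centralizer_singleton_iff.mpr ?_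
    have h1 : z * a = a * z := mem_centralizer_singleton_iff.mp hz.2
    calc b * z * b⁻¹ * a = b * z * (b⁻¹ * a) := by group
      _ = b * (z * a) * b⁻¹ := by rw [hAc b⁻¹ (inv_mem hb) a ha]; group
      _ = (b * a) * z * b⁻¹ := by rw [h1]; group
      _ = a * (b * z * b⁻¹) := by rw [hAc b hb a ha]; group⟩
  have hbn : b ∈ normalizer (C : Set Γ) := mem_normalizer_iff.mpr fun z => ⟨hbC z, fun hz => by
    have key : ∀ n : ℕ, b ^ n * (b * z * b⁻¹) * (b ^ n)⁻¹ ∈ C := by
      intro n
      induction n with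
      | zero => simpa using hz
      | succ n ih => have := hbC _ ih; convert this using 1; rw [pow_succ']; group
    have h1 := key (p - 1)
    have h2 : b ^ (p - 1) * b = 1 := by rw [← pow_succ, Nat.sub_add_cancel hp.one_le, hexp b hb]
    have e : z = b ^ (p - 1) * (b * z * b⁻¹) * (b ^ (p - 1))⁻¹ := by
      calc z = (b ^ (p - 1) * b) * z * (b ^ (p - 1) * b)⁻¹ := by rw [h2]; group
        _ = b ^ (p - 1) * (b * z * b⁻¹) * (b ^ (p - 1))⁻¹ := by group
    exact e ▸ h1⟩
  let φ : MulAut C := C.normalizerMonoidHom ⟨b, hbn⟩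
  have hnil : Group.IsNilpotent C := by
    refine FPF.isNilpotent_of_isFPF hp φ (fun z hz => ?_) ?_
    · have hzb : b * (z : Γ) * b⁻¹ = z := congrArg Subtype.val hz
      have hS := WardData.eq_of_mem hp hexp hcard (S := A ⊓ centralizer {(z : Γ)}) inf_le_left
        (a := a) (b := b) ⟨ha, mem_centralizer_singleton_iff.mpr (mem_centralizer_singleton_iff.mp z.2.2).symm⟩
        ⟨hb, mem_centralizer_singleton_iff.mpr (mul_inv_eq_iff_eq_mul.mp hzb)⟩ ha1 hba
      have : (z : Γ) ∈ H ⊓ centralizer (A : Set Γ) := ⟨z.2.1, mem_centralizer_iff.mpr fun c hc =>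
        mem_centralizer_singleton_iff.mp ((hS.symm ▸ hc : c ∈ A ⊓ centralizer {(z : Γ)})).2⟩
      rw [hfpf, mem_bot] at this
      exact Subtype.ext this
    · show (C.normalizerMonoidHom ⟨b, hbn⟩) ^ p = 1
      rw [← map_pow, show (⟨b, hbn⟩ : normalizer (C : Set Γ)) ^ p = 1 from Subtype.ext (hexp b hb), map_one]
  have hxy := Lib.Transfer.commute_of_coprime_orderOf (x := (⟨x, hx, mem_centralizer_singleton_iff.mpr hxa⟩ : C))
    (y := (⟨y, hy, mem_centralizer_singleton_iff.mpr hya⟩ : C)) (by simpa [← Subgroup.orderOf_coe] using hco)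
  exact congrArg Subtype.val hxy.eq

/-- The minimal situation in Ward's theorem. -/
theorem ward_minimal {p : ℕ} (hp : p.Prime) (Γ : Type u) [Group Γ] [Finite Γ] (H A V : Subgroup Γ)
    (l : ℕ) (S : Setting (IsElemSq.{u} p) H A) (hVn : V.Normal) (hVH : V ≤ H) (hl : l.Prime)
    (hVl : ∀ x ∈ V, x ^ l = 1) (hVc : IsMulCommutative V) (hCV : H ⊓ centralizer (V : Set Γ) ≤ V)
    (hO : ∀ M : Subgroup Γ, M.Normal → M ≤ H → IsPGroup l M → M ≤ V) :
    ∃ k, H.lowerCentralSeries k ≤ V := by
  have := S.normal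
  have := S.solv
  have hAs := S.hAsolv
  have := Fact.mk hl
  have := Fact.mk hp
  obtain ⟨hAc', hAe', hAcard⟩ := S.hA
  have hAc : ∀ a ∈ A, ∀ b ∈ A, a * b = b * a := fun a ha b hb => congrArg Subtype.val (hAc' ⟨a, ha⟩ ⟨b, hb⟩)
  have hAexp : ∀ a ∈ A, a ^ p = 1 := fun a ha => congrArg Subtype.val (hAe' ⟨a, ha⟩)
  let π := QuotientGroup.mk' V
  have hπ : Function.Surjective π := QuotientGroup.mk'_surjective V
  let Hb : Subgroup (Γ ⧸ V) := H.map π
  have hHbn : Hb.Normal := Subgroup.Normal.map inferInstance π hπ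
  have hHbs : Group.IsSolvable Hb := isSolvable_map _ _
  suffices hnil : Group.IsNilpotent Hb by
    obtain ⟨k, hk⟩ := (isNilpotent_iff_lowerCentralSeries Hb).mp hnil
    refine ⟨k, ?_⟩
    rw [← map_lowerCentralSeries, Subgroup.map_eq_bot_iff, QuotientGroup.ker_mk'] at hk
    exact hk
  refine isNilpotent_of_sylow_centralize fun q r hq hr hqr R₀ => ?_
  have := Fact.mk hq
  have := Fact.mk hr
  -- the preimage of the `q`-core
  let Qb : Subgroup (Γ ⧸ V) := (pCore q Hb).map Hb.subtype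
  have hQbn : Qb.Normal := inferInstance
  let M : Subgroup Γ := Qb.comap π
  have hMn : M.Normal := hQbn.comap π
  have hVM : V ≤ M := fun x hx => show π x ∈ Qb by
    rw [show π x = 1 from (QuotientGroup.eq_one_iff x).mpr hx]; exact one_mem _
  have hMH : M ≤ H := by
    intro x hx
    have h1 : π x ∈ Hb := map_subtype_le _ hx
    obtain ⟨h, hh, he⟩ := h1
    have h2 : h⁻¹ * x ∈ V := by
      rw [← QuotientGroup.eq_one_iff]; show π (h⁻¹ * x) = 1
      rw [map_mul, map_inv, he, inv_mul_cancel]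
    simpa using H.mul_mem hh (hVH h2)
  have hQbq : IsPGroup q Qb := (isPGroup_pCore q).map _
  have hpH : ¬ p ∣ Nat.card H := fun h => by
    have h1 : p ∣ Nat.card A := hAcard ▸ dvd_pow_self p two_ne_zero
    exact hp.ne_one (Nat.eq_one_of_dvd_coprimes S.cop h1 h)
  have hbotcase : pCore q Hb = ⊥ → (R₀ : Subgroup Hb) ≤ centralizer (pCore q Hb : Set Hb) := fun hb => by
    rw [hb]
    exact fun z _ => mem_centralizer_iff.mpr fun w hw => by
      rw [SetLike.mem_coe, mem_bot] at hw; rw [hw, one_mul, mul_one]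
  by_cases hqp : q = p
  · exact hbotcase (pCore_eq_bot_of_not_dvd fun h => hpH (hqp ▸ h.trans (card_map_dvd H π)))
  by_cases hrp : r = p
  · intro z hz
    have h1 : ¬ r ∣ Nat.card Hb := fun h => hpH (hrp ▸ h.trans (card_map_dvd H π))
    obtain ⟨i, hi⟩ := IsPGroup.iff_orderOf.mp R₀.2 ⟨z, hz⟩
    have h2 : orderOf z ∣ Nat.card Hb := _root_.orderOf_dvd_natCard z
    rw [Subgroup.orderOf_mk] at hi
    rcases Nat.eq_zero_or_pos i with rfl | hi0
    · rw [pow_zero, orderOf_eq_one_iff] at hi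
      rw [hi]; exact one_mem _
    · exact absurd ((dvd_pow_self r hi0.ne').trans (hi ▸ h2)) h1
  by_cases hql : q = l
  · -- `q = l`: the core is trivial
    subst hql
    have hMl : IsPGroup q M := fun x => by
      obtain ⟨i, hi⟩ := hQbq ⟨π x, x.2⟩
      have h1 : (x : Γ) ^ q ^ i ∈ V := (QuotientGroup.eq_one_iff _).mp
        ((map_pow π _ _).trans (congrArg Subtype.val hi))
      refine ⟨i + 1, Subtype.ext ?_⟩
      rw [Subgroup.coe_pow, pow_succ, pow_mul, hVl _ h1, Subgroup.coe_one]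
    have hbot : pCore q Hb = ⊥ := by
      refine (map_eq_bot_iff_of_injective _ Hb.subtype_injective).mp (eq_bot_iff.mpr fun z hz => ?_)
      obtain ⟨x, rfl⟩ := hπ z
      exact (QuotientGroup.eq_one_iff x).mpr (hO M hMn hMH hMl hz)
    exact hbotcase hbot
  -- invariant Sylow subgroups
  have hAM : A ≤ normalizer (M : Set Γ) := by rw [normalizer_eq_top]; exact le_top
  have hcopM : (Nat.card A).Coprime (Nat.card M) := S.cop.coprime_dvd_right (card_dvd_of_le hMH)
  obtain ⟨Q₀, hAQ⟩ := exists_invariant_sylow hAM hcopM (Or.inl hAs) q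
  let Q : Subgroup Γ := (Q₀ : Subgroup M).map M.subtype
  have hQM : Q ≤ M := map_subtype_le _
  have hQq : IsPGroup q Q := Q₀.2.map _
  let N : Subgroup Γ := H ⊓ normalizer (Q : Set Γ)
  have hAN : A ≤ normalizer (N : Set Γ) := by
    intro a ha
    refine mem_normalizer_of_conj_smul_eq ?_
    rw [conj_smul_inf, conj_smul_of_normal]
    congr 1
    exact conj_smul_eq_self (le_normalizer (hAQ ha))
  obtain ⟨R₁, hAR⟩ := exists_invariant_sylow hAN (S.cop.coprime_dvd_right (card_dvd_of_le inf_le_left))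
    (Or.inl hAs) r
  let R : Subgroup Γ := (R₁ : Subgroup N).map N.subtype
  have hRN : R ≤ N := map_subtype_le _
  have hRH : R ≤ H := hRN.trans inf_le_left
  have hRQ : R ≤ normalizer (Q : Set Γ) := hRN.trans inf_le_right
  have hRr : IsPGroup r R := R₁.2.map _
  -- `[Q, R]` centralises `V`
  have hcomm : ∀ x ∈ R, ∀ y ∈ Q, x * y = y * x := by
    have hnV : ∀ g : Γ, g ∈ normalizer (V : Set Γ) := fun g => by
      rw [normalizer_eq_top]; exact mem_top g
    let φ : Γ →* MulAut V := MulAut.conjNormal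
    have hφ : ∀ g : Γ, φ g = 1 → ∀ v ∈ V, g * v = v * g := fun g hg v hv => by
      have h1 := congrArg Subtype.val (DFunLike.congr_fun hg ⟨v, hv⟩)
      rw [MulAut.conjNormal_apply] at h1
      exact mul_inv_eq_iff_eq_mul.mp h1
    have hφ' : ∀ g : Γ, (∀ v ∈ V, g * v = v * g) → φ g = 1 := fun g hg => by
      apply MulEquiv.ext
      intro v
      apply Subtype.ext
      rw [MulAut.conjNormal_apply, hg v v.2, mul_inv_cancel_right]
      rfl
    intro x hx y hy
    have hordx : ∀ z ∈ R, ∃ i, orderOf z = r ^ i := fun z hz => by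
      obtain ⟨i, hi⟩ := IsPGroup.iff_orderOf.mp hRr ⟨z, hz⟩
      exact ⟨i, by rw [← hi, ← Subgroup.orderOf_coe]⟩
    have hordy : ∀ z ∈ Q, ∃ i, orderOf z = q ^ i := fun z hz => by
      obtain ⟨i, hi⟩ := IsPGroup.iff_orderOf.mp hQq ⟨z, hz⟩
      exact ⟨i, by rw [← hi, ← Subgroup.orderOf_coe]⟩
    have hnil : ∀ a ∈ A, a ≠ 1 → ∀ x ∈ R, x * a = a * x → ∀ y ∈ Q, y * a = a * y → x * y = y * x := by
      intro a ha ha1 x hx hxa y hy hya
      refine commute_in_centralizer hp hAc hAexp hAcard S.fpf ha ha1 (hRH hx) (hMH (hQM hy)) hxa hya ?_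
      obtain ⟨i, hi⟩ := hordx x hx
      obtain ⟨j, hj⟩ := hordy y hy
      rw [hi, hj]
      exact Nat.Coprime.pow _ _ ((Nat.coprime_primes hr hq).mpr hqr.symm)
    have hcopA : ∀ X ≤ H, (Nat.card A).Coprime (Nat.card X) := fun X hX =>
      S.cop.coprime_dvd_right (card_dvd_of_le hX)
    by_cases hker : ∃ a ∈ A, a ≠ 1 ∧ φ a = 1
    · -- then `H` centralises `a`
      obtain ⟨a, ha, ha1, haφ⟩ := hker
      have hfix : ∀ g ∈ H, g * a = a * g := by
        intro g hg
        have hzA : zpowers a ≤ A := zpowers_le.mpr ha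
        have hzs : Group.IsSolvable (zpowers a) := Group.isSolvable_of_comm fun x y => mul_comm' x y
        obtain ⟨c, hc, hcn⟩ := exists_centralizer_mem_coset (A := zpowers a) (N := V) (k := g)
          (by rw [normalizer_eq_top]; exact le_top)
          ((hcopA V hVH).coprime_dvd_left (card_dvd_of_le hzA)) (Or.inl hzs) fun b hb => by
            refine hCV ⟨H.mul_mem (H.inv_mem hg) (S.normal.conj_mem g hg b), ?_⟩
            refine mem_centralizer_iff.mpr fun v hv => ?_
            refine ((hφ _ ?_) v hv).symm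
            obtain ⟨i, rfl⟩ := mem_zpowers_iff.mp hb
            simp [map_mul, map_inv, map_zpow, haφ]
        have h1 : a * c = c * a := mem_centralizer_iff.mp hc a (mem_zpowers a)
        have h2 : a * (g⁻¹ * c) = (g⁻¹ * c) * a := hφ a haφ _ hcn
        have h3 : g = c * (g⁻¹ * c)⁻¹ := by group
        rw [h3]
        exact ((Commute.mul_right h1 (Commute.inv_right h2)).eq).symm
      exact hnil a ha ha1 x hx (hfix x (hRH hx)) y hy (hfix y (hMH (hQM hy)))
    push_neg at hker
    have hinjA : Function.Injective (φ.subgroupMap A) := (injective_iff_map_eq_one _).mpr fun b hb =>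
      Subtype.ext (by_contra fun hne => hker b b.2 hne (congrArg Subtype.val hb))
    have lift : ∀ (X : Subgroup Γ), X ≤ H → A ≤ normalizer (X : Set Γ) → ∀ B ≤ A, ∀ z ∈ X,
        (∀ b ∈ B, φ b * φ z = φ z * φ b) → ∃ z' ∈ X, φ z' = φ z ∧ ∀ b ∈ B, z' * b = b * z' := by
      intro X hX hAX B hB z hz hzB
      have hBs : Group.IsSolvable B := isSolvable_of_le hB hAs
      obtain ⟨c, hc, hcn⟩ := exists_centralizer_mem_coset (A := B) (N := X ⊓ φ.ker) (k := z)
        (fun b hb => mem_normalizer_iff.mpr fun w => by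
          have h1 := mem_normalizer_iff.mp (hAX (hB hb)) w
          constructor
          · exact fun hw => ⟨h1.mp hw.1, (inferInstance : φ.ker.Normal).conj_mem w hw.2 b⟩
          · intro hw
            refine ⟨h1.mpr hw.1, ?_⟩
            simpa [mul_assoc] using (inferInstance : φ.ker.Normal).conj_mem _ hw.2 b⁻¹)
        (((hcopA _ hX).coprime_dvd_left (card_dvd_of_le hB)).coprime_dvd_right
          (card_dvd_of_le inf_le_left)) (Or.inl hBs) fun b hb => by
          refine ⟨X.mul_mem (X.inv_mem hz) ((mem_normalizer_iff.mp (hAX (hB hb)) z).mp hz), ?_⟩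
          refine MonoidHom.mem_ker.mpr ?_
          rw [map_mul, map_inv, map_mul, map_mul, map_inv, hzB b hb, mul_inv_cancel_right,
            inv_mul_cancel]
      refine ⟨c, by simpa using X.mul_mem hz hcn.1, ?_, fun b hb => (mem_centralizer_iff.mp hc b hb).symm⟩
      have h1 := MonoidHom.mem_ker.mp hcn.2
      rw [map_mul, map_inv, inv_mul_eq_one] at h1
      exact h1.symm
    have hfixall : ∀ X : Subgroup Γ, X ≤ H → A ≤ normalizer (X : Set Γ) →
        X.map φ ⊓ centralizer (A.map φ : Set (MulAut V)) = ⊥ := by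
      intro X hX hAX
      refine (eq_bot_iff_forall _).mpr ?_
      rintro _ ⟨⟨z, hz, rfl⟩, hzc⟩
      obtain ⟨z', hz', hzz, hzA⟩ := lift X hX hAX A le_rfl z hz fun b hb =>
        mem_centralizer_iff.mp hzc _ (mem_map_of_mem φ hb)
      have : z' ∈ H ⊓ centralizer (A : Set Γ) := ⟨hX hz', mem_centralizer_iff.mpr fun b hb => (hzA b hb).symm⟩
      rw [S.fpf, mem_bot] at this
      rw [← hzz, this, map_one]
    have hzl : ∀ a ∈ A, zpowers a ≤ A := fun a ha => zpowers_le.mpr ha
    have hcom1 : ∀ {a z : Γ}, φ z * φ a = φ a * φ z → ∀ b ∈ zpowers a, φ b * φ z = φ z * φ b := by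
      intro a z h b hb
      obtain ⟨i, rfl⟩ := mem_zpowers_iff.mp hb
      rw [map_zpow]
      exact (Commute.zpow_left (Commute.symm h) i).eq
    have D : WardData (A.map φ) (Q.map φ) (R.map φ) p q r := by
      refine
        { hp := hp, hq := hq, hr := hr, hqp := hqp, hrp := hrp, hrq := hqr.symm
          hQ := hQq.map φ, hR := hRr.map φ
          hAc := ?_, hAexp := ?_
          hAcard := ?_
          hAQ := ?_, hAR := ?_, hRQ := ?_
          hQA := hfixall Q (hQM.trans hMH) hAQ
          hRA := hfixall R hRH hAR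
          hnil := ?_ }
      · rintro _ ⟨a, ha, rfl⟩ _ ⟨b, hb, rfl⟩; rw [← map_mul, hAc a ha b hb, map_mul]
      · rintro _ ⟨a, ha, rfl⟩; rw [← map_pow, hAexp a ha, map_one]
      · rw [← hAcard]
        exact (Nat.card_congr (Equiv.ofBijective _ ⟨hinjA, φ.subgroupMap_surjective A⟩)).symm
      · exact (map_mono hAQ).trans (le_normalizer_map φ)
      · exact (map_mono hAR).trans (le_normalizer_map φ)
      · exact (map_mono hRQ).trans (le_normalizer_map φ)
      · rintro _ ⟨a, ha, rfl⟩ ha1 _ ⟨z, hz, rfl⟩ hza _ ⟨w, hw, rfl⟩ hwa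
        obtain ⟨z', hz', hzz, hzA⟩ := lift R hRH hAR _ (hzl a ha) z hz (hcom1 hza)
        obtain ⟨w', hw', hww, hwA⟩ := lift Q (hQM.trans hMH) hAQ _ (hzl a ha) w hw (hcom1 hwa)
        have h1 := hnil a ha (fun e => ha1 (by rw [e, map_one])) z' hz' (hzA a (mem_zpowers a)) w' hw'
          (hwA a (mem_zpowers a))
        rw [← hzz, ← hww, ← map_mul, h1, map_mul]
    have hcopV : q.Coprime (Nat.card V) := by
      obtain ⟨i, hi⟩ := IsPGroup.iff_card.mp (isPGroup_of_pow_eq_one hVl)
      rw [hi]; exact Nat.Coprime.pow_right _ ((Nat.coprime_primes hq hl).mpr hql)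
    have hcore := ward_core (Γ := MulAut V) (V := V) (fun g hg => MulEquiv.ext hg) hcopV D
      (by
        rintro _ ⟨a, ha, rfl⟩ ha1 _ ⟨w, hw, rfl⟩ hwa v hv
        obtain ⟨w', hw', hww, hwA⟩ := lift Q (hQM.trans hMH) hAQ _ (hzl a ha) w hw (hcom1 hwa)
        have hva : a * (v : Γ) = v * a := by
          have h1 := congrArg Subtype.val hv
          change ((φ a v : V) : Γ) = v at h1
          rw [MulAut.conjNormal_apply] at h1
          exact mul_inv_eq_iff_eq_mul.mp h1
        have hne : a ≠ 1 := fun e => ha1 (by rw [e, map_one])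
        have h2 : w' * (v : Γ) = v * w' := commute_in_centralizer hp hAc hAexp hAcard S.fpf ha hne
          (hMH (hQM hw')) (hVH v.2) (hwA a (mem_zpowers a)) hva.symm (by
            obtain ⟨j, hj⟩ := hordy w' hw'
            rw [hj]
            exact Nat.Coprime.pow_left _ (((Nat.coprime_primes hq hl).mpr hql).coprime_dvd_right
              (orderOf_dvd_of_pow_eq_one (hVl v v.2))))
        rw [← hww]
        show φ w' v = v
        apply Subtype.ext
        rw [MulAut.conjNormal_apply, h2, mul_inv_cancel_right])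
    have h1 : φ ⁅y, x⁆ = 1 := by
      rw [map_commutatorElement]
      exact mem_bot.mp (hcore ▸ commutator_mem_commutator (mem_map_of_mem φ hy) (mem_map_of_mem φ hx))
    have h2 : ⁅y, x⁆ ∈ Q := commutator_le_of_le_normalizer' hRQ (commutator_mem_commutator hy hx)
    have h3 : ⁅y, x⁆ ∈ V := hCV ⟨hMH (hQM h2), mem_centralizer_iff.mpr fun v hv => (hφ _ h1 v hv).symm⟩
    have h4 := Subgroup.disjoint_def.mp
      (IsPGroup.disjoint_of_ne q l hql _ _ hQq (isPGroup_of_pow_eq_one hVl)) h2 h3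
    exact (commutatorElement_eq_one_iff_mul_comm.mp h4).symm
  -- the image of `Q` is the whole core, that of `R` a Sylow subgroup
  have hQmap : Qb ≤ Q.map π := by
    intro z hz
    obtain ⟨m, rfl⟩ := hπ z
    have hm : m ∈ M := hz
    have hQV : M ≤ Q ⊔ V := by
      refine subgroupOf_eq_top.mp (index_eq_one.mp (Nat.eq_one_iff_not_exists_prime_dvd.mpr fun s hs hd => ?_))
      by_cases hsq : s = q
      · subst hsq
        refine Q₀.not_dvd_index (hd.trans (index_dvd_of_le fun w hw => ?_))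
        exact (mem_sup_left (mem_map_of_mem M.subtype hw) : (w : Γ) ∈ Q ⊔ V)
      · have hVM' : Nat.card M = Nat.card Qb * Nat.card V := by
          have h1 := card_map_mk' V M
          rw [inf_eq_right.mpr hVM, show M.map π = Qb from map_comap_eq_self_of_surjective hπ Qb] at h1
          exact h1.symm
        have h2 : s ∣ (V.subgroupOf M).index :=
          hd.trans (index_dvd_of_le (comap_mono le_sup_right))
        have h3 : (V.subgroupOf M).index = Nat.card Qb := by
          refine Nat.eq_of_mul_eq_mul_left (Nat.card_pos (α := V.subgroupOf M)) ?_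
          rw [card_mul_index, hVM', Nat.card_congr (subgroupOfEquivOfLe hVM).toEquiv, mul_comm]
        obtain ⟨i, hi⟩ := IsPGroup.iff_card.mp hQbq
        rw [h3, hi] at h2
        exact hsq ((Nat.prime_dvd_prime_iff_eq hs hq).mp (hs.dvd_of_dvd_pow h2))
    obtain ⟨u, hu, v, hv, rfl⟩ := mem_sup_of_normal_right.mp (hQV hm)
    exact ⟨u, hu, by rw [map_mul, show π v = 1 from (QuotientGroup.eq_one_iff v).mpr hv, mul_one]⟩
  have hfr := Sylow.normalizer_sup_eq_top Q₀
  have hsurjN : ∀ z ∈ Hb, ∃ n ∈ N, π n = z := by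
    rintro _ ⟨h, hh, rfl⟩
    obtain ⟨n, hn, m, hm, hnm⟩ := mem_sup_of_normal_right.mp (hfr ▸ mem_top h :
      h ∈ normalizer (Q : Set Γ) ⊔ M)
    have hnH : n ∈ H := by
      have : n = h * m⁻¹ := by rw [← hnm, mul_inv_cancel_right]
      rw [this]; exact H.mul_mem hh (H.inv_mem (hMH hm))
    obtain ⟨u, hu, hum⟩ := hQmap hm
    exact ⟨n * u, N.mul_mem ⟨hnH, hn⟩ ⟨hMH (hQM hu), le_normalizer hu⟩,
      by rw [← hnm, map_mul, map_mul, hum]⟩
  let f : N →* Hb := (π.comp N.subtype).codRestrict Hb fun n => ⟨n, n.2.1, rfl⟩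
  have hf : Function.Surjective f := fun z => by
    obtain ⟨n, hn, he⟩ := hsurjN z z.2
    exact ⟨⟨n, hn⟩, Subtype.ext he⟩
  let R' : Sylow r Hb := R₁.mapSurjective hf
  have hR' : (R' : Subgroup Hb) ≤ centralizer (pCore q Hb : Set Hb) := by
    rintro z ⟨n, hn, rfl⟩
    rw [mem_centralizer_iff]
    intro w hw
    apply Subtype.ext
    obtain ⟨u, hu, hue⟩ := hQmap (mem_map_of_mem Hb.subtype hw)
    show (w : Γ ⧸ V) * π (n : Γ) = π (n : Γ) * (w : Γ ⧸ V)
    rw [show (w : Γ ⧸ V) = π u from hue.symm, ← map_mul, ← map_mul,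
      hcomm n (mem_map_of_mem N.subtype hn) u hu]
  obtain ⟨g, hg⟩ := MulAction.exists_smul_eq Hb R' R₀
  rw [← hg]
  intro z hz
  replace hz : z ∈ MulAut.conj g • (R' : Subgroup Hb) := hz
  rw [mem_conj_smul] at hz
  have h1 := (inferInstance : (centralizer (pCore q Hb : Set Hb)).Normal).conj_mem _ (hR' hz) g
  simpa [mul_assoc] using h1

/-- **Ward**: Fitting height at most two. -/
theorem ward {Γ : Type u} [Group Γ] [Finite Γ] {p : ℕ} (hp : p.Prime) {H A : Subgroup Γ}
    (S : Setting (IsElemSq.{u} p) H A) : ∃ k, Group.IsNilpotent (H.lowerCentralSeries k : Subgroup Γ) := by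
  obtain ⟨k, -, hk⟩ := reduce (P := IsElemSq.{u} p) (fun e h => isElemSq_equiv p e h) Set.univ
    Set.univ_nonempty (fun _ _ _ _ => Set.mem_univ _)
    (fun Γ _ _ H A V l S hVn hVH hl hVl hVc hCV hO => by
      obtain ⟨k, hk⟩ := ward_minimal hp Γ H A V l S hVn hVH hl hVl hVc hCV hO
      exact ⟨k, Set.mem_univ k, hk⟩) _ Γ H A rfl S
  exact ⟨k, hk⟩

end Cfsg.Agent.Lib.FitHeight
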